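import Cfsg.Prelude.Def_Local
import Mathlib.LinearAlgebra.Matrix.SpecialLinearGroup
import Mathlib.GroupTheory.Solvable
import Mathlib.Data.ZMod.Basic

/-!
# A noncomplete solvable signalizer functor on a four-group

Inside `SL(3,3)` the diagonal four-group fixes the three root elements `E₁₂`, `E₂₃`, `E₁₃`
one by one; the functor keeps the first two and forgets their commutator.
-/

set_option autoImplicit false

namespace Cfsg.Agent.Signalizer.RankTwo

open Matrix Subgroup

abbrev X := SpecialLinearGroup (Fin 3) (ZMod 3)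

def a : X := ⟨!![2, 0, 0; 0, 2, 0; 0, 0, 1], by decide⟩
def b : X := ⟨!![1, 0, 0; 0, 2, 0; 0, 0, 2], by decide⟩
def x : X := ⟨!![1, 1, 0; 0, 1, 0; 0, 0, 1], by decide⟩
def y : X := ⟨!![1, 0, 0; 0, 1, 1; 0, 0, 1], by decide⟩
def z : X := ⟨!![1, 0, 1; 0, 1, 0; 0, 0, 1], by decide⟩

theorem rel_a : a * a = 1 := Subtype.ext (by decide)
theorem rel_b : b * b = 1 := Subtype.ext (by decide)
theorem rel_ab : a * b = b * a := Subtype.ext (by decide)
theorem rel_x : x * (x * x) = 1 := Subtype.ext (by decide)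
theorem rel_y : y * (y * y) = 1 := Subtype.ext (by decide)
theorem ax : a * x = x * a := Subtype.ext (by decide)
theorem bx : b * x = (x * x) * b := Subtype.ext (by decide)
theorem bxx : b * (x * x) = x * b := Subtype.ext (by decide)
theorem by' : b * y = y * b := Subtype.ext (by decide)
theorem ay : a * y = (y * y) * a := Subtype.ext (by decide)
theorem ayy : a * (y * y) = y * a := Subtype.ext (by decide)
theorem zc : z * (a * b) = (a * b) * z := Subtype.ext (by decide)
theorem zxy : z = x * y * (x * x) * (y * y) := Subtype.ext (by decide)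

theorem ne_facts : a ≠ 1 ∧ b ≠ 1 ∧ a * b ≠ 1 ∧ a ≠ b ∧ a * b ≠ a ∧ a * b ≠ b ∧ z ≠ 1 := by
  refine ⟨?_, ?_, ?_, ?_, ?_, ?_, ?_⟩ <;>
    exact fun h => absurd (congrArg Subtype.val h) (by decide)

/-- The four-group. -/
def A : Subgroup X where
  carrier := {g | g = 1 ∨ g = a ∨ g = b ∨ g = a * b}
  one_mem' := Or.inl rfl
  mul_mem' := by
    have h1 := rel_a
    have h2 := rel_b
    have h3 := rel_ab
    have h4 : a * (a * b) = b := by rw [← mul_assoc, h1, one_mul]
    have h5 : a * b * b = a := by rw [mul_assoc, h2, mul_one]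
    have h6 : b * (a * b) = a := by rw [← mul_assoc, ← h3, h5]
    have h7 : a * b * a = b := by rw [h3, mul_assoc, h1, mul_one]
    have h8 : a * b * (a * b) = 1 := by rw [mul_assoc, h6, h1]
    rintro g h (rfl | rfl | rfl | rfl) (rfl | rfl | rfl | rfl) <;>
      simp [h1, h2, ← h3, h4, h5, h6, h7, h8]
  inv_mem' := by
    have h1 : a⁻¹ = a := inv_eq_of_mul_eq_one_right rel_a
    have h2 : b⁻¹ = b := inv_eq_of_mul_eq_one_right rel_b
    rintro g (rfl | rfl | rfl | rfl) <;> simp [h1, h2, ← rel_ab]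

open scoped Classical in
/-- The functor. -/
noncomputable def θ (g : X) : Subgroup X :=
  if g = a then zpowers x else if g = b then zpowers y else ⊥

theorem θ_a : θ a = zpowers x := if_pos rfl
theorem θ_b : θ b = zpowers y := by rw [θ, if_neg ne_facts.2.2.2.1.symm, if_pos rfl]
theorem θ_ab : θ (a * b) = ⊥ := by rw [θ, if_neg ne_facts.2.2.2.2.1, if_neg ne_facts.2.2.2.2.2.1]

theorem mem_zpowers_three {g u : X} (hu : u * (u * u) = 1) (h : g ∈ zpowers u) :
    g = 1 ∨ g = u ∨ g = u * u := by
  have ho : IsOfFinOrder u := isOfFinOrder_of_finite u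
  rw [← ho.mem_powers_iff_mem_zpowers] at h
  obtain ⟨n, rfl⟩ := h
  have h3 : u ^ 3 = 1 := by rw [pow_succ', pow_two]; exact hu
  show u ^ n = 1 ∨ u ^ n = u ∨ u ^ n = u * u
  rw [pow_eq_pow_mod n h3]
  have : n % 3 < 3 := Nat.mod_lt _ (by norm_num)
  interval_cases (n % 3) <;> simp [pow_two]

theorem card_zpowers_three {u : X} (hu : u * (u * u) = 1) : ¬ 2 ∣ Nat.card (zpowers u) := by
  rw [Nat.card_zpowers]
  intro h
  have h3 : orderOf u ∣ 3 := orderOf_dvd_of_pow_eq_one (by rw [pow_succ', pow_two]; exact hu)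
  exact absurd (h.trans h3) (by norm_num)

theorem exists_incomplete : ∃ (X : Type) (_ : Group X) (_ : Finite X) (A : Subgroup X)
    (θ : X → Subgroup X), Cfsg.IsElementaryAbelian 2 A ∧ Nat.card ↥A = 4 ∧
      Cfsg.IsSolvableSignalizerFunctor 2 A θ ∧ ¬ Cfsg.IsCompleteSignalizerFunctor 2 A θ := by
  refine ⟨RankTwo.X, inferInstance, inferInstance, A, θ, ⟨⟨⟨?_⟩⟩, ?_⟩, ?_, ⟨⟨?_, ?_, ?_, ?_⟩, ?_⟩, ?_⟩
  · rintro ⟨g, hg⟩ ⟨h, hh⟩
    apply Subtype.ext
    show g * h = h * g
    rcases hg with rfl | rfl | rfl | rfl <;> rcases hh with rfl | rfl | rfl | rfl <;>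
      exact Subtype.ext (by decide)
  · intro g hg
    rcases hg with rfl | rfl | rfl | rfl <;> exact Subtype.ext (by decide)
  · have hset : ((A : Subgroup RankTwo.X) : Set RankTwo.X) = {1, a, b, a * b} := by
      ext g; exact Iff.rfl
    rw [← SetLike.coe_sort_coe, hset, Nat.card_coe_set_eq]
    obtain ⟨h1, h2, h3, h4, h5, h6, _⟩ := ne_facts
    rw [Set.ncard_insert_of_notMem (by simp [h1.symm, h2.symm, h3.symm]),
      Set.ncard_insert_of_notMem (by simp [h4, h5.symm]),
      Set.ncard_insert_of_notMem (by simp [h6.symm]), Set.ncard_singleton]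
  · intro g hg hg1
    rcases hg with rfl | rfl | rfl | rfl
    · exact absurd rfl hg1
    · rw [θ_a, zpowers_le, mem_centralizer_singleton_iff]; exact ax.symm
    · rw [θ_b, zpowers_le, mem_centralizer_singleton_iff]; exact by'.symm
    · rw [θ_ab]; exact bot_le
  · intro g hg hg1
    rcases hg with rfl | rfl | rfl | rfl
    · exact absurd rfl hg1
    · rw [θ_a]; exact card_zpowers_three rel_x
    · rw [θ_b]; exact card_zpowers_three rel_y
    · rw [θ_ab, card_bot]; norm_num
  · intro g hg hg1 h hh u hu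
    have key : ∀ w ∈ A, ∀ v : RankTwo.X, (∀ k ∈ ({a, b} : Set RankTwo.X), k * v * k⁻¹ ∈ zpowers v) →
        ∀ u ∈ zpowers v, w * u * w⁻¹ ∈ zpowers v := by
      intro w hw v hv u hu
      have hn : ∀ k ∈ ({a, b} : Set RankTwo.X), k ∈ normalizer (zpowers v : Set RankTwo.X) := by
        intro k hk
        rw [mem_normalizer_iff_map_conj_eq]
        refine eq_of_le_of_card_ge ?_ (card_map_of_injective (MulAut.conj k).injective).ge
        rw [MonoidHom.map_zpowers, zpowers_le]
        exact hv k hk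
      have hwn : w ∈ normalizer (zpowers v : Set RankTwo.X) := by
        rcases hw with rfl | rfl | rfl | rfl
        · exact one_mem _
        · exact hn a (Or.inl rfl)
        · exact hn b (Or.inr rfl)
        · exact mul_mem (hn a (Or.inl rfl)) (hn b (Or.inr rfl))
      exact (mem_normalizer_iff.1 hwn u).1 hu
    rcases hg with rfl | rfl | rfl | rfl
    · exact absurd rfl hg1
    · rw [θ_a] at hu ⊢
      refine key h hh x ?_ u hu
      rintro k (rfl | rfl)
      · rw [ax, mul_inv_cancel_right]; exact mem_zpowers x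
      · rw [bx, mul_inv_cancel_right]; exact mul_mem (mem_zpowers x) (mem_zpowers x)
    · rw [θ_b] at hu ⊢
      refine key h hh y ?_ u hu
      rintro k (rfl | rfl)
      · rw [ay, mul_inv_cancel_right]; exact mul_mem (mem_zpowers y) (mem_zpowers y)
      · rw [by', mul_inv_cancel_right]; exact mem_zpowers y
    · rw [θ_ab, mem_bot] at hu ⊢
      rw [hu]; simp
  · intro g hg hg1 h hh hh1 u ⟨hu1, hu2⟩
    rw [SetLike.mem_coe] at hu1 hu2
    have hu2' := mem_centralizer_singleton_iff.1 hu2
    rcases hg with rfl | rfl | rfl | rfl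
    · exact absurd rfl hg1
    · rw [θ_a] at hu1
      rcases mem_zpowers_three rel_x hu1 with rfl | rfl | rfl
      · exact one_mem _
      all_goals
        rcases hh with rfl | rfl | rfl | rfl
        · exact absurd rfl hh1
        · rw [θ_a]; exact hu1
        all_goals exact absurd (congrArg Subtype.val hu2') (by decide)
    · rw [θ_b] at hu1
      rcases mem_zpowers_three rel_y hu1 with rfl | rfl | rfl
      · exact one_mem _
      all_goals
        rcases hh with rfl | rfl | rfl | rfl
        · exact absurd rfl hh1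
        · exact absurd (congrArg Subtype.val hu2') (by decide)
        · rw [θ_b]; exact hu1
        · exact absurd (congrArg Subtype.val hu2') (by decide)
    · rw [θ_ab] at hu1
      rw [mem_bot.1 hu1]; exact one_mem _
  · intro g hg hg1
    rcases hg with rfl | rfl | rfl | rfl
    · exact absurd rfl hg1
    · rw [θ_a]; infer_instance
    · rw [θ_b]; infer_instance
    · rw [θ_ab]; infer_instance
  · rintro ⟨_, W, hinv, _, hW⟩
    have hxW : x ∈ W := by
      have : x ∈ W ⊓ centralizer {a} := by rw [hW a (Or.inr (Or.inl rfl)) ne_facts.1, θ_a]; exact mem_zpowers x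
      exact this.1
    have hyW : y ∈ W := by
      have : y ∈ W ⊓ centralizer {b} := by
        rw [hW b (Or.inr (Or.inr (Or.inl rfl))) ne_facts.2.1, θ_b]; exact mem_zpowers y
      exact this.1
    have hzW : z ∈ W := by
      rw [zxy]
      exact W.mul_mem (W.mul_mem (W.mul_mem hxW hyW) (W.mul_mem hxW hxW)) (W.mul_mem hyW hyW)
    have hzc : z ∈ W ⊓ centralizer {a * b} := ⟨hzW, mem_centralizer_singleton_iff.2 zc⟩
    rw [hW (a * b) (Or.inr (Or.inr (Or.inr rfl))) ne_facts.2.2.1, θ_ab, mem_bot] at hzc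
    exact ne_facts.2.2.2.2.2.2 hzc

end Cfsg.Agent.Signalizer.RankTwo
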