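import Cfsg.Agent.Signalizer.Generation
import Cfsg.Agent.Signalizer.Functor

/-!
# Fixed points in the closure of a balanced family

An abelian `p`-group `A` acts on a solvable group `X` of order prime to `p`, generated by
`A`-invariant subgroups `Y F ≤ C_X(F)`, `F` running over a family of subgroups of `A` whose
centralizers generate every invariant subgroup.  If any two members of the family lie in an
invariant subgroup `Z` with `C_Z(F) ≤ Y F` for all `F`, then `C_X(F) ≤ Y F` for all `F`.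
-/

set_option autoImplicit false
set_option linter.unusedSectionVars false

namespace Cfsg.Agent.Signalizer

open Subgroup
open scoped Pointwise commutatorElement

variable {G : Type*} [Group G] {p : ℕ}

theorem family_closure_inf_centralizer_le [Finite G] [Fact p.Prime] {A X : Subgroup G}
    (hA : IsPGroup p A) (hAc : IsMulCommutative A) (𝓕 : Set (Subgroup G))
    (h𝓕 : ∀ F ∈ 𝓕, F ≤ A) (Y : Subgroup G → Subgroup G) (hAX : A ≤ normalizer (X : Set G))
    (hcard : ¬ p ∣ Nat.card X) (hsol : Group.IsSolvable X)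
    (hgen : ∀ S H : Subgroup G, S ≤ X → A ≤ normalizer (S : Set G) →
      (∀ F ∈ 𝓕, S ⊓ centralizer (F : Set G) ≤ H) → S ≤ H)
    (hY : ∀ F ∈ 𝓕, Y F ≤ X ⊓ centralizer (F : Set G))
    (hYA : ∀ F ∈ 𝓕, A ≤ normalizer (Y F : Set G))
    (hX : X ≤ ⨆ F ∈ 𝓕, Y F)
    (hpair : ∀ F₁ ∈ 𝓕, ∀ F₂ ∈ 𝓕, ∃ Z : Subgroup G, Z ≤ X ∧ A ≤ normalizer (Z : Set G) ∧
      Y F₁ ≤ Z ∧ Y F₂ ≤ Z ∧ ∀ F ∈ 𝓕, Z ⊓ centralizer (F : Set G) ≤ Y F) :
    ∀ F ∈ 𝓕, X ⊓ centralizer (F : Set G) ≤ Y F := by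
  induction hn : Nat.card X using Nat.strong_induction_on generalizing X Y with
  | _ n ih =>
    subst hn
    rcases eq_or_ne X ⊥ with rfl | hne
    · intro F _
      simp
    haveI := hsol
    have hD : ⁅X, X⁆ < X := by
      haveI : Nontrivial X := (nontrivial_iff_ne_bot X).2 hne
      rw [← map_subtype_commutator X]
      conv_rhs => rw [← X.range_subtype, MonoidHom.range_eq_map]
      exact (Subgroup.map_lt_map_iff_of_injective X.subtype_injective).2
        (Group.IsSolvable.commutator_lt_top_of_nontrivial X)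
    obtain ⟨M, ⟨hDM, hMX, hAM⟩, hmax⟩ := Set.Finite.exists_maximal
      (s := {M : Subgroup G | ⁅X, X⁆ ≤ M ∧ M < X ∧ A ≤ normalizer (M : Set G)})
      (Set.toFinite _) ⟨⁅X, X⁆, le_rfl, hD, le_normalizer_commutator hAX hAX⟩
    have hnX : ∀ L : Subgroup G, ⁅X, X⁆ ≤ L → L ≤ X → X ≤ normalizer (L : Set G) :=
      fun L h1 h2 => le_normalizer_iff.2 fun x hx y hy => by
        have h3 : ⁅x, y⁆ ∈ L := h1 (commutator_mem_commutator hx (h2 hy))
        have h4 : x * y * x⁻¹ = ⁅x, y⁆ * y := by rw [commutatorElement_def]; group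
        rw [h4]
        exact L.mul_mem h3 hy
    have hXM : X ≤ normalizer (M : Set G) := hnX M hDM hMX.le
    -- the part of the family inside `M`
    set S : Subgroup G := ⨆ F ∈ 𝓕, Y F ⊓ M with hS
    have hYS : ∀ F ∈ 𝓕, Y F ⊓ M ≤ S := fun F hF =>
      le_iSup₂ (f := fun F (_ : F ∈ 𝓕) => Y F ⊓ M) F hF
    have hSM : S ≤ M := iSup₂_le fun F _ => inf_le_right
    have hSA : A ≤ normalizer (S : Set G) :=
      le_normalizer_iSup fun F => le_normalizer_iSup fun hF => le_normalizer_inf (hYA F hF) hAM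
    have hSX : S < X := lt_of_le_of_lt hSM hMX
    have hcS : ∀ F ∈ 𝓕, S ⊓ centralizer (F : Set G) ≤ Y F ⊓ M := by
      refine ih (Nat.card S) ?_ (fun F => Y F ⊓ M) hSA (not_dvd_card_of_le hSX.le hcard)
        (isSolvable_subgroup_of_le hSX.le hsol) (fun T H hT => hgen T H (hT.trans hSX.le))
        (fun F hF => le_inf (hYS F hF) (inf_le_left.trans ((hY F hF).trans inf_le_right)))
        (fun F hF => le_normalizer_inf (hYA F hF) hAM) le_rfl ?_ rfl
      · exact lt_of_le_of_ne (Nat.le_of_dvd Nat.card_pos (card_dvd_of_le hSX.le))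
          fun he => hSX.ne (eq_of_le_of_card_ge hSX.le he.ge)
      · intro F₁ h₁ F₂ h₂
        obtain ⟨Z, hZX, hAZ, hZ1, hZ2, hZ⟩ := hpair F₁ h₁ F₂ h₂
        have hZc : ∀ F ∈ 𝓕, (Z ⊓ M) ⊓ centralizer (F : Set G) ≤ Y F ⊓ M := fun F hF =>
          le_inf ((inf_le_inf_right _ inf_le_left).trans (hZ F hF))
            (inf_le_left.trans inf_le_right)
        exact ⟨Z ⊓ M, hgen (Z ⊓ M) S (inf_le_left.trans hZX) (le_normalizer_inf hAZ hAM)
          fun F hF => (hZc F hF).trans (hYS F hF), le_normalizer_inf hAZ hAM,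
          inf_le_inf_right _ hZ1, inf_le_inf_right _ hZ2, hZc⟩
    -- some member lies outside `M`
    obtain ⟨F₀, hF₀, hY₀⟩ : ∃ F₀ ∈ 𝓕, ¬ Y F₀ ≤ M := by
      by_contra hc
      push Not at hc
      exact hMX.not_ge (hX.trans (iSup₂_le hc))
    have hY₀X : Y F₀ ≤ X := (hY F₀ hF₀).trans inf_le_left
    have hMY : M ⊔ Y F₀ = X := by
      refine (eq_of_le_of_not_lt (sup_le hMX.le hY₀X) fun hlt => hY₀ ?_)
      exact (le_sup_right : Y F₀ ≤ M ⊔ Y F₀).trans
        (hmax ⟨hDM.trans le_sup_left, hlt, le_normalizer_sup hAM (hYA F₀ hF₀)⟩ le_sup_left)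
    have hSY : Y F₀ ≤ normalizer (S : Set G) := by
      refine le_normalizer_iff.2 fun y hy => ?_
      suffices h : S ≤ S.comap (MulAut.conj y).toMonoidHom from fun u hu => h hu
      refine iSup₂_le fun F hF u hu => ?_
      obtain ⟨Z, hZX, hAZ, hZ1, hZ2, hZ⟩ := hpair F₀ hF₀ F hF
      have hle : Z ⊓ M ≤ S := hgen (Z ⊓ M) S (inf_le_left.trans hZX)
        (le_normalizer_inf hAZ hAM) fun F' hF' =>
          (le_inf ((inf_le_inf_right _ inf_le_left).trans (hZ F' hF'))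
            (inf_le_left.trans inf_le_right)).trans (hYS F' hF')
      exact hle ⟨Z.mul_mem (Z.mul_mem (hZ1 hy) (hZ2 hu.1)) (Z.inv_mem (hZ1 hy)),
        le_normalizer_iff.1 hXM y (hY₀X hy) u hu.2⟩
    have hY₀F : ∀ F ∈ 𝓕, Y F₀ ⊓ centralizer (F : Set G) ≤ Y F := fun F hF => by
      obtain ⟨Z, -, -, hZ1, -, hZ⟩ := hpair F₀ hF₀ F hF
      exact (inf_le_inf_right _ hZ1).trans (hZ F hF)
    have hT : X ≤ S ⊔ Y F₀ := by
      refine hX.trans (iSup₂_le fun F hF y hy => ?_)
      have hy' : y ∈ (M ⊔ Y F₀) ⊓ centralizer (F : Set G) := by rw [hMY]; exact hY F hF hy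
      rw [sup_inf_centralizer (hA.to_le (h𝓕 F hF)) ((h𝓕 F hF).trans hAM)
        ((h𝓕 F hF).trans (hYA F₀ hF₀)) (hY₀X.trans hXM) (not_dvd_card_of_le hMX.le hcard)] at hy'
      have hn : Y F₀ ⊓ centralizer (F : Set G) ≤
          normalizer ((M ⊓ centralizer (F : Set G) : Subgroup G) : Set G) :=
        le_normalizer_inf ((inf_le_left.trans hY₀X).trans hXM)
          (inf_le_right.trans Subgroup.le_normalizer)
      rw [← SetLike.mem_coe, sup_comm, coe_mul_of_left_le_normalizer_right _ _ hn] at hy'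
      obtain ⟨w, hw, m, hm, rfl⟩ := hy'
      have hwF : w ∈ Y F := hY₀F F hF hw
      have hmF : m ∈ Y F := by simpa using (Y F).mul_mem ((Y F).inv_mem hwF) hy
      exact (S ⊔ Y F₀).mul_mem (mem_sup_right hw.1) (mem_sup_left (hYS F hF ⟨hmF, hm.1⟩))
    intro F hF
    refine (inf_le_inf_right _ hT).trans ?_
    rw [sup_inf_centralizer (hA.to_le (h𝓕 F hF)) ((h𝓕 F hF).trans hSA)
      ((h𝓕 F hF).trans (hYA F₀ hF₀)) hSY (not_dvd_card_of_le hSX.le hcard)]
    exact sup_le ((hcS F hF).trans inf_le_left) (hY₀F F hF)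

end Cfsg.Agent.Signalizer
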