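import Cfsg.Agent.Signalizer.Generation
import Cfsg.Agent.LocEven.SylowGraph
import Cfsg.Prelude.Def_Balance

/-!
# Strongly p-embedded subgroups and the commuting graph on subgroups of order p
-/

set_option autoImplicit false

namespace Cfsg.Agent.Signalizer.OneConnected

open Subgroup
open Cfsg.Agent.Signalizer

variable {G : Type*} [Group G] [Finite G] {p : ℕ} [Fact p.Prime]

/-- A vertex. -/
def Vtx (p : ℕ) (E : Subgroup G) : Prop := Cfsg.IsElementaryAbelian p E ∧ p ^ 1 ≤ Nat.card ↥E

/-- Edges of the graph. -/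
def Rel (p : ℕ) (A B : Subgroup G) : Prop :=
  Cfsg.IsElementaryAbelian p A ∧ p ^ 1 ≤ Nat.card ↥A ∧ Cfsg.IsElementaryAbelian p B ∧
    p ^ 1 ≤ Nat.card ↥B ∧ ∀ a ∈ A, ∀ b ∈ B, a * b = b * a

omit [Finite G] [Fact p.Prime] in
theorem Rel.symm {A B : Subgroup G} (h : Rel p A B) : Rel p B A :=
  ⟨h.2.2.1, h.2.2.2.1, h.1, h.2.1, fun b hb a ha => (h.2.2.2.2 a ha b hb).symm⟩

omit [Finite G] [Fact p.Prime] in
theorem chain_symm {A B : Subgroup G} (h : Relation.ReflTransGen (Rel p) A B) :
    Relation.ReflTransGen (Rel p) B A := by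
  induction h with
  | refl => exact .refl
  | tail _ h' ih => exact Relation.ReflTransGen.head h'.symm ih

omit [Fact p.Prime] in
theorem Rel.map {A B : Subgroup G} (h : Rel p A B) (g : G) :
    Rel p (A.map (MulAut.conj g).toMonoidHom) (B.map (MulAut.conj g).toMonoidHom) := by
  have hel : ∀ {U : Subgroup G}, Cfsg.IsElementaryAbelian p U →
      Cfsg.IsElementaryAbelian p (U.map (MulAut.conj g).toMonoidHom) := by
    intro U hU
    refine ⟨⟨⟨?_⟩⟩, ?_⟩
    · rintro ⟨_, a, ha, rfl⟩ ⟨_, b, hb, rfl⟩
      exact Subtype.ext (by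
        show _ * _ = _ * _
        rw [← map_mul, elemAb_comm hU ha hb, map_mul])
    · rintro _ ⟨a, ha, rfl⟩
      rw [← map_pow, hU.2 a ha, map_one]
  refine ⟨hel h.1, ?_, hel h.2.2.1, ?_, ?_⟩
  · rw [card_map_of_injective (MulAut.conj g).injective]; exact h.2.1
  · rw [card_map_of_injective (MulAut.conj g).injective]; exact h.2.2.2.1
  · rintro _ ⟨a, ha, rfl⟩ _ ⟨b, hb, rfl⟩
    rw [← map_mul, h.2.2.2.2 a ha b hb, map_mul]

omit [Fact p.Prime] in
theorem chain_map {A B : Subgroup G} (h : Relation.ReflTransGen (Rel p) A B) (g : G) :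
    Relation.ReflTransGen (Rel p) (A.map (MulAut.conj g).toMonoidHom)
      (B.map (MulAut.conj g).toMonoidHom) := by
  induction h with
  | refl => exact .refl
  | tail _ h' ih => exact ih.tail (h'.map g)

theorem vtx_zpowers {x : G} (hx : orderOf x = p) : Vtx p (zpowers x) := by
  refine ⟨⟨le_centralizer_iff_isMulCommutative.1 ?_, fun a ha => ?_⟩, ?_⟩
  · rw [centralizer_zpowers, zpowers_le, mem_centralizer_singleton_iff]
  · obtain ⟨k, rfl⟩ := mem_zpowers_iff.1 ha
    rw [← zpow_natCast, ← zpow_mul, mul_comm, zpow_mul, zpow_natCast, ← hx, pow_orderOf_eq_one,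
      one_zpow]
  · rw [pow_one, Nat.card_zpowers, hx]

theorem Vtx.exists_orderOf {E : Subgroup G} (h : Vtx p E) : ∃ x ∈ E, orderOf x = p := by
  obtain ⟨x, hx, hx1⟩ := exists_ne_one_of_le_card
    (lt_of_lt_of_le (Fact.out : p.Prime).one_lt (by simpa using h.2))
  exact ⟨x, hx, elemAb_orderOf h.1 hx hx1⟩

/-- In a `p`-group every vertex is adjacent to one central subgroup of order `p`. -/
theorem exists_center {P : Subgroup G} (hP : IsPGroup p P) (hne : P ≠ ⊥) :
    ∃ z ∈ P, orderOf z = p ∧ P ≤ centralizer {z} := by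
  haveI : Nontrivial P := (nontrivial_iff_ne_bot P).2 hne
  haveI := hP.center_nontrivial
  obtain ⟨n, hn, hcard⟩ := (hP.to_subgroup (center P)).nontrivial_iff_card.1 inferInstance
  obtain ⟨⟨⟨z, hzP⟩, hz⟩, hzo⟩ := exists_prime_orderOf_dvd_card' (G := center P) p
    (by rw [hcard]; exact dvd_pow_self p hn.ne')
  refine ⟨z, hzP, ?_, fun u hu => ?_⟩
  · rw [← hzo, Subgroup.orderOf_mk, Subgroup.orderOf_mk]
  · rw [mem_centralizer_singleton_iff]
    exact congrArg Subtype.val (mem_center_iff.1 hz ⟨u, hu⟩)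

theorem rel_zpowers {E : Subgroup G} (hE : Vtx p E) {z : G} (hz : orderOf z = p)
    (h : E ≤ centralizer {z}) : Rel p E (zpowers z) := by
  refine ⟨hE.1, hE.2, (vtx_zpowers hz).1, (vtx_zpowers hz).2, fun a ha b hb => ?_⟩
  rw [← centralizer_zpowers] at h
  exact (mem_centralizer_iff.1 (h ha) b hb).symm

theorem iff_not_connected : (∃ H : Subgroup G, H ≠ ⊤ ∧ p ∣ Nat.card ↥H ∧
      ∀ g : G, g ∉ H → ¬ p ∣ Nat.card ↥(H ⊓ H.map (MulAut.conj g).toMonoidHom)) ↔
    ¬ Cfsg.IsKConnected p 1 G := by
  constructor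
  · rintro ⟨H, hne, hdvd, hH⟩ hconn
    have hS : LocEven.SEmb p H := hH
    obtain ⟨⟨x, hxH⟩, hx⟩ := exists_prime_orderOf_dvd_card' (G := H) p hdvd
    rw [Subgroup.orderOf_mk] at hx
    refine hne (eq_top_iff.2 fun g _ => ?_)
    have hx' : orderOf (g⁻¹ * x * g) = p := by
      have := orderOf_injective (MulAut.conj g⁻¹).toMonoidHom (MulAut.conj g⁻¹).injective x
      simpa [hx] using this
    have hchain := hconn (zpowers x) (zpowers (g⁻¹ * x * g)) (vtx_zpowers hx).1 (vtx_zpowers hx).2
      (vtx_zpowers hx').1 (vtx_zpowers hx').2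
    have hle : zpowers (g⁻¹ * x * g) ≤ H := by
      generalize zpowers (g⁻¹ * x * g) = B at hchain
      induction hchain with
      | refl => exact zpowers_le.2 hxH
      | tail _ h ih =>
        obtain ⟨e, he, heo⟩ := Vtx.exists_orderOf ⟨h.1, h.2.1⟩
        exact fun b hb => hS.centralizer_le (x := e) (heo ▸ dvd_rfl) (ih he)
          (mem_centralizer_singleton_iff.2 (h.2.2.2.2 e he b hb).symm)
    exact hS.mem_of_conj_mem (hx ▸ dvd_rfl) hxH (hle (mem_zpowers _))
  · intro h
    simp only [Cfsg.IsKConnected, not_forall] at h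
    obtain ⟨E, E', hE, hEc, hE', hE'c, hn⟩ := h
    change ¬ Relation.ReflTransGen (Rel p) E E' at hn
    let H : Subgroup G :=
      { carrier := {g | Relation.ReflTransGen (Rel p) E (E.map (MulAut.conj g).toMonoidHom)}
        one_mem' := by simp only [Set.mem_setOf_eq, map_conj_one]; exact .refl
        mul_mem' := fun {a b} ha hb => by
          have := chain_map hb a
          rw [map_conj_map_conj] at this
          exact Relation.ReflTransGen.trans ha this
        inv_mem' := fun {a} ha => by
          have := chain_map (chain_symm ha) a⁻¹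
          rw [map_conj_map_conj, inv_mul_cancel, map_conj_one] at this
          exact this }
    obtain ⟨P, hP⟩ := IsPGroup.exists_le_sylow (elemAb_isPGroup hE)
    obtain ⟨e, heE, heo⟩ := Vtx.exists_orderOf ⟨hE, hEc⟩
    have hPne : (P : Subgroup G) ≠ ⊥ := fun hb => by
      have := hP heE
      rw [hb, mem_bot] at this
      rw [this, orderOf_one] at heo
      exact (Fact.out : p.Prime).ne_one heo.symm
    obtain ⟨z, hzP, hzo, hzc⟩ := exists_center P.isPGroup' hPne
    have hEz : Rel p E (zpowers z) := rel_zpowers ⟨hE, hEc⟩ hzo (hP.trans hzc)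
    have hPH : (P : Subgroup G) ≤ H := by
      intro u hu
      refine (Relation.ReflTransGen.single hEz).trans ?_
      have h2 := chain_map (Relation.ReflTransGen.single hEz.symm) u
      rwa [MonoidHom.map_zpowers, show (MulAut.conj u).toMonoidHom z = z by
        show u * z * u⁻¹ = z
        rw [mem_centralizer_singleton_iff.1 (hzc hu), mul_inv_cancel_right]] at h2
    refine ⟨H, fun htop => ?_, ?_, fun g hg hdvd => hg ?_⟩
    · obtain ⟨P', hP'⟩ := IsPGroup.exists_le_sylow (elemAb_isPGroup hE')
      obtain ⟨g, rfl⟩ := MulAction.exists_smul_eq G P P'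
      have hg : Relation.ReflTransGen (Rel p) E (E.map (MulAut.conj g).toMonoidHom) :=
        htop.ge (mem_top g)
      refine hn (hg.trans ((chain_map (Relation.ReflTransGen.single hEz) g).trans ?_))
      rw [MonoidHom.map_zpowers]
      refine Relation.ReflTransGen.single (rel_zpowers ⟨hE', hE'c⟩ ?_ ?_).symm
      · rw [orderOf_injective (MulAut.conj g).toMonoidHom (MulAut.conj g).injective z, hzo]
      · intro u hu
        have hu' : u ∈ (P : Subgroup G).map (MulAut.conj g).toMonoidHom := hP' hu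
        obtain ⟨v, hv, rfl⟩ := hu'
        rw [mem_centralizer_singleton_iff, ← map_mul, mem_centralizer_singleton_iff.1 (hzc hv), map_mul]
    · have : p ∣ orderOf z := hzo ▸ dvd_rfl
      exact this.trans (orderOf_mk z (hPH hzP) ▸ orderOf_dvd_natCard _)
    · obtain ⟨⟨x, hxH, hxg⟩, hx⟩ := exists_prime_orderOf_dvd_card'
        (G := (H ⊓ H.map (MulAut.conj g).toMonoidHom : Subgroup G)) p hdvd
      have hxo : orderOf x = p := (Subgroup.orderOf_coe _).trans hx
      have near : ∀ y : G, y ∈ H → orderOf y = p →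
          Relation.ReflTransGen (Rel p) E (zpowers y) := by
        intro y hy hyo
        have hzy : IsPGroup p (zpowers y) := IsPGroup.of_card (n := 1) (by rw [Nat.card_zpowers, hyo, pow_one])
        obtain ⟨R, hR, hyR⟩ := exists_isSyl_ge hzy (zpowers_le.2 hy)
        have hPs : IsSyl p (P : Subgroup G) H := ⟨hPH, P.isPGroup', fun S _ hS hle => P.is_maximal' hS hle⟩
        obtain ⟨k, hk, hkR⟩ := hPs.exists_conj hR
        refine (show Relation.ReflTransGen (Rel p) E (E.map (MulAut.conj k).toMonoidHom) from hk).trans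
          ((chain_map (Relation.ReflTransGen.single hEz) k).trans ?_)
        rw [MonoidHom.map_zpowers]
        refine Relation.ReflTransGen.single (rel_zpowers (vtx_zpowers hyo) ?_ ?_).symm
        · rw [orderOf_injective (MulAut.conj k).toMonoidHom (MulAut.conj k).injective z, hzo]
        · intro u hu
          have hu' := hyR hu
          rw [← hkR] at hu'
          obtain ⟨v, hv, rfl⟩ := hu'
          rw [mem_centralizer_singleton_iff, ← map_mul, mem_centralizer_singleton_iff.1 (hzc hv), map_mul]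
      obtain ⟨y, hy, hyx⟩ := hxg
      have hyo : orderOf y = p := by
        rw [← orderOf_injective (MulAut.conj g).toMonoidHom (MulAut.conj g).injective y, hyx, hxo]
      have h2 := chain_map (near y hy hyo) g
      rw [MonoidHom.map_zpowers, hyx] at h2
      exact (near x hxH hxo).trans (chain_symm h2)

end Cfsg.Agent.Signalizer.OneConnected
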