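import Cfsg.Agent.Signalizer.PAction
import Cfsg.Agent.Components.PComponent
import Cfsg.Agent.Cores.Pi
import Cfsg.Prelude.Def_Balance
import Mathlib.GroupTheory.Transfer

/-!
# The extended 2-layer
-/

set_option autoImplicit false

namespace Cfsg.Agent.Signalizer.ExtLayer

open Subgroup
open Cfsg.Agent.Signalizer
open scoped Pointwise commutatorElement

variable {G : Type*} [Group G] [Finite G] {q : ℕ}

/-- Sylow subgroups meet normalised subgroups in Sylow subgroups. -/
theorem isSyl_inf [Fact q.Prime] {T M N : Subgroup G} (hT : IsSyl q T M) (hNM : N ≤ M)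
    (hn : M ≤ normalizer (N : Set G)) : IsSyl q (T ⊓ N) N := by
  obtain ⟨R, hR, hTR⟩ := exists_isSyl_ge (hT.isPGroup.to_le inf_le_left) (inf_le_right : T ⊓ N ≤ N)
  obtain ⟨R', hR', hRR'⟩ := exists_isSyl_ge hR.isPGroup (hR.le.trans hNM)
  obtain ⟨m, hm, hmT⟩ := hR'.exists_conj hT
  have h1 : R.map (MulAut.conj m).toMonoidHom ≤ T ⊓ N := by
    refine le_inf ((map_mono hRR').trans hmT.le) ?_
    exact (map_mono hR.le).trans (map_conj_eq_self_iff.2 (hn hm)).le
  have h2 : R = T ⊓ N := (eq_of_le_of_card_ge hTR ((card_map_of_injective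
    (MulAut.conj m).injective).ge.trans (Nat.le_of_dvd Nat.card_pos (card_dvd_of_le h1)))).symm
  exact h2 ▸ hR

theorem isSyl_inf_subnormal [Fact q.Prime] {T M K : Subgroup G} (hT : IsSyl q T M) (hKM : K ≤ M)
    (hK : K.IsSubnormal) : IsSyl q (T ⊓ K) K := by
  induction hK generalizing T M with
  | top =>
    obtain rfl : M = ⊤ := top_le_iff.1 hKM
    rwa [inf_top_eq]
  | step K S hKS _ hn ih =>
    -- `K` is normalised by `S`; pass from `M` to `M ⊓ S`
    obtain ⟨R, hR, hTR⟩ := exists_isSyl_ge (hT.isPGroup.to_le inf_le_left) (inf_le_right : T ⊓ K ≤ K)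
    obtain ⟨R', hR', hRR'⟩ := exists_isSyl_ge hR.isPGroup (hR.le.trans hKS)
    obtain ⟨W, hW, hR'W⟩ := exists_isSyl_ge hT.isPGroup (le_top : T ≤ ⊤)
    have h1 : IsSyl q (W ⊓ S) S := ih hW le_top
    have h2 : IsSyl q (W ⊓ S ⊓ K) K :=
      isSyl_inf h1 hKS ((normal_subgroupOf_iff_le_normalizer hKS).1 hn)
    have h3 : W ⊓ M = T := hT.2.2 _ inf_le_right (hW.isPGroup.to_le inf_le_left) (le_inf hR'W hT.le)
    have h4 : W ⊓ S ⊓ K = T ⊓ K := by
      rw [← h3, inf_assoc, inf_eq_right.2 hKS, inf_assoc, inf_eq_right.2 hKM]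
    exact h4 ▸ h2

/-- The subgroup `L_{2'}(X) O(X)`. -/
abbrev base (X : Type*) [Group X] : Subgroup X := Cfsg.pLayer 2 X ⊔ Cfsg.oddCore X

/-- The subgroup `L_{2'}(X) O_{2',2}(X)`. -/
abbrev big (X : Type*) [Group X] : Subgroup X := Cfsg.pLayer 2 X ⊔ Cfsg.pPrimePCore 2 X

/-- `O(C(T))` as a subgroup of the whole group. -/
abbrev coreC (T : Subgroup G) : Subgroup G :=
  (Cfsg.oddCore ↥(centralizer (T : Set G))).map (centralizer (T : Set G)).subtype

variable {X : Type*} [Group X] [Finite X]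

instance base_normal_inst : (base X).Normal :=
  have := Components.pLayer_normal (G := X) (p := 2)
  sup_normal _ _

instance big_normal_inst : (big X).Normal :=
  have := Components.pLayer_normal (G := X) (p := 2)
  have : (Cfsg.pPrimePCore 2 X).Normal := (Cfsg.pCore_normal 2 _).comap _
  sup_normal _ _

theorem base_le_big : base X ≤ big X := sup_le_sup_left (QuotientGroup.le_comap_mk' _ _) _

theorem coreC_map_conj (T : Subgroup G) (g : G) :
    coreC (T.map (MulAut.conj g).toMonoidHom) = (coreC T).map (MulAut.conj g).toMonoidHom := by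
  have hc : centralizer ((T.map (MulAut.conj g).toMonoidHom : Subgroup G) : Set G)
      = (centralizer (T : Set G)).map (MulAut.conj g).toMonoidHom := by
    ext x
    rw [mem_map_equiv, MulAut.conj_symm_apply, mem_centralizer_iff, mem_centralizer_iff]
    constructor
    · intro h t ht
      have h' := h _ ⟨t, ht, rfl⟩
      simp only [MulEquiv.coe_toMonoidHom, MulAut.conj_apply] at h'
      calc t * (g⁻¹ * x * g) = g⁻¹ * (g * t * g⁻¹ * x) * g := by group
        _ = g⁻¹ * (x * (g * t * g⁻¹)) * g := by rw [h']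
        _ = g⁻¹ * x * g * t := by group
    · rintro h _ ⟨t, ht, rfl⟩
      simp only [MulEquiv.coe_toMonoidHom, MulAut.conj_apply]
      calc g * t * g⁻¹ * x = g * (t * (g⁻¹ * x * g)) * g⁻¹ := by group
        _ = g * (g⁻¹ * x * g * t) * g⁻¹ := by rw [h t ht]
        _ = x * (g * t * g⁻¹) := by group
  let e : ↥(centralizer (T : Set G)) ≃* ↥(centralizer ((T.map (MulAut.conj g).toMonoidHom : Subgroup G) : Set G)) :=
    ((MulAut.conj g).subgroupMap _).trans (MulEquiv.subgroupCongr hc.symm)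
  rw [coreC, coreC, Cfsg.oddCore, Cfsg.oddCore, ← Cores.map_pPrimeCore_equiv e, map_map, map_map]
  rfl

theorem le_normalizer_coreC (T : Subgroup G) :
    normalizer (T : Set G) ≤ normalizer ((coreC T : Subgroup G) : Set G) := fun g hg => by
  rw [← map_conj_eq_self_iff, ← coreC_map_conj, map_conj_eq_self_iff.2 hg]

theorem coreC_le_centralizer (T : Subgroup G) : coreC T ≤ centralizer (T : Set G) :=
  map_subtype_le _

theorem big_eq_sup {T : Subgroup X} (hT : IsSyl 2 T (big X)) : big X = base X ⊔ T := by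
  refine le_antisymm ?_ (sup_le base_le_big hT.le)
  haveI : Fact (Nat.Prime 2) := ⟨Nat.prime_two⟩
  refine sup_le (le_sup_of_le_left le_sup_left) ?_
  set O := Cfsg.pPrimePCore 2 X
  have hOn : O.Normal := (Cfsg.pCore_normal 2 _).comap _
  have hO : IsSyl 2 (T ⊓ O) O :=
    isSyl_inf hT le_sup_right (by rw [normalizer_eq_top O]; exact le_top)
  refine le_trans ?_ (sup_le_sup (le_sup_right : Cfsg.oddCore X ≤ base X) (inf_le_left : T ⊓ O ≤ T))
  rw [← relIndex_eq_one]
  refine Nat.eq_one_iff_not_exists_prime_dvd.2 fun r hr hd => ?_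
  haveI : Fact r.Prime := ⟨hr⟩
  rcases eq_or_ne r 2 with rfl | hr2
  · exact hO.not_dvd_relIndex (hd.trans (relIndex_dvd_of_le_left O le_sup_right))
  · have h1 := hd.trans (relIndex_dvd_of_le_left O (le_sup_left : Cfsg.oddCore X ≤ Cfsg.oddCore X ⊔ T ⊓ O))
    have h2 : (Cfsg.oddCore X).relIndex O = Nat.card (Cfsg.pCore 2 (X ⧸ Cfsg.pPrimeCore 2 X)) := by
      rw [← relIndex_bot_left,
        ← map_comap_eq_self_of_surjective (QuotientGroup.mk'_surjective _)
          (Cfsg.pCore 2 (X ⧸ Cfsg.pPrimeCore 2 X)),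
        ← relIndex_comap, MonoidHom.comap_bot, QuotientGroup.ker_mk']
      rfl
    rw [h2] at h1
    obtain ⟨n, hn⟩ := IsPGroup.iff_card.1 (Cores.pCore_isPGroup (p := 2) (G := X ⧸ Cfsg.pPrimeCore 2 X))
    rw [hn] at h1
    exact hr2 ((Nat.prime_dvd_prime_iff_eq hr Nat.prime_two).1 (hr.dvd_of_dvd_pow h1))

theorem extended_eq {T : Subgroup X} (hT : IsSyl 2 T (big X)) :
    Cfsg.extendedTwoLayer X = base X ⊔ coreC T := by
  haveI : Fact (Nat.Prime 2) := ⟨Nat.prime_two⟩
  refine le_antisymm (sup_le le_sup_left (iSup_le fun T' => ?_)) (sup_le le_sup_left ?_)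
  · obtain ⟨m, hm, hmT⟩ := hT.exists_conj (isSyl_of_sylow T')
    show coreC _ ≤ _
    rw [← hmT, coreC_map_conj]
    have hmn : m ∈ normalizer ((base X ⊔ coreC T : Subgroup X) : Set X) := by
      rw [big_eq_sup hT] at hm
      refine (sup_le ?_ ?_ : base X ⊔ T ≤ normalizer _) hm
      · exact le_sup_left.trans Subgroup.le_normalizer
      · refine le_normalizer_sup (by rw [normalizer_eq_top (base X)]; exact le_top) ?_
        exact Subgroup.le_normalizer.trans (le_normalizer_coreC T)
    rw [← map_conj_eq_self_iff] at hmn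
    exact (map_mono le_sup_right).trans hmn.le
  · obtain ⟨S, hS⟩ := hT.exists_sylow
    exact le_sup_of_le_right (le_trans (le_of_eq (by rw [hS])) (le_iSup _ S))

theorem extended_normal : (Cfsg.extendedTwoLayer X).Normal := by
  haveI : Fact (Nat.Prime 2) := ⟨Nat.prime_two⟩
  obtain ⟨T, hT, -⟩ := exists_isSyl_ge (q := 2) (X := big X) IsPGroup.of_bot bot_le
  refine normalizer_eq_top_iff.1 (eq_top_iff.2 fun g _ => ?_)
  rw [← map_conj_eq_self_iff]
  have hb : (big X).map (MulAut.conj g).toMonoidHom = big X :=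
    map_conj_eq_self_iff.2 (by rw [normalizer_eq_top (big X)]; exact mem_top g)
  have hT' : IsSyl 2 (T.map (MulAut.conj g).toMonoidHom) (big X) := hb ▸ hT.map_conj g
  conv_lhs => rw [extended_eq hT]
  rw [Subgroup.map_sup, ← coreC_map_conj, extended_eq hT',
    map_conj_eq_self_iff.2 (by rw [normalizer_eq_top (base X)]; exact mem_top g)]

theorem extended_complement : ∃ F : Subgroup X, Odd (Nat.card ↥F) ∧
    (∃ S : Sylow 2 X, (S : Subgroup X) ≤ normalizer (F : Set X)) ∧
    Cfsg.extendedTwoLayer X = Cfsg.pLayer 2 X ⊔ F := by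
  haveI : Fact (Nat.Prime 2) := ⟨Nat.prime_two⟩
  let S : Sylow 2 X := default
  have hbn : (⊤ : Subgroup X) ≤ normalizer (big X : Set X) := by
    rw [normalizer_eq_top (big X)]
  have hS : IsSyl 2 (S : Subgroup X) ⊤ :=
    ⟨le_top, S.isPGroup', fun R _ hR h => S.is_maximal' hR h⟩
  have hT := isSyl_inf hS le_top hbn
  set T := (S : Subgroup X) ⊓ big X with hTdef
  have hSn : (S : Subgroup X) ≤ normalizer (T : Set X) :=
    le_normalizer_inf Subgroup.le_normalizer (le_top.trans hbn)
  refine ⟨Cfsg.oddCore X ⊔ coreC T, ?_, ⟨S, ?_⟩, ?_⟩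
  · have h1 : Odd (Nat.card (Cfsg.oddCore X)) := Cores.odd_card_oddCore
    have h2 : Odd (Nat.card (coreC T)) := by
      rw [card_map_of_injective (subtype_injective _)]
      exact Cores.odd_card_oddCore
    rw [sup_comm]
    exact (h2.mul h1).of_dvd_nat (Cores.card_sup_dvd_mul (coreC T) (Cfsg.oddCore X))
  · exact le_normalizer_sup (by rw [normalizer_eq_top (Cfsg.oddCore X)]; exact le_top)
      (hSn.trans (le_normalizer_coreC T))
  · rw [extended_eq hT, base, sup_assoc]

theorem central_sylow_eq_bot {K : Type*} [Group K] [Finite K] [Fact q.Prime] (P : Sylow q K)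
    (h : (P : Subgroup K) ≤ center K) (hK : Group.IsPerfect K) : (P : Subgroup K) = ⊥ := by
  have hP : normalizer ((P : Subgroup K) : Set K) ≤ centralizer ((P : Subgroup K) : Set K) :=
    fun g _ => mem_centralizer_iff.2 fun x hx => ((mem_center_iff.1 (h hx)) g).symm
  haveI : IsMulCommutative (P : Subgroup K) :=
    ⟨⟨fun a b => Subtype.ext (mem_center_iff.1 (h b.2) a)⟩⟩
  have hc := MonoidHom.ker_transferSylow_isComplement' P hP
  have hle : commutator K ≤ (MonoidHom.transferSylow P hP).ker := by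
    letI : CommGroup ↥(P : Subgroup K) :=
      { (inferInstance : Group ↥(P : Subgroup K)) with
        mul_comm := fun a b => Subtype.ext (mem_center_iff.1 (h b.2) a) }
    rw [commutator_def, commutator_le]
    intro a _ b _
    rw [MonoidHom.mem_ker, map_commutatorElement, commutatorElement_def]
    rw [mul_inv_eq_one, mul_inv_eq_iff_eq_mul, mul_comm]
  rw [(Group.isPerfect_def (G := K)).1 hK, top_le_iff] at hle
  have := hc.disjoint
  rw [hle, disjoint_iff, top_inf_eq] at this
  exact this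

theorem centralizer_le_normalizer_pComponent {T K : Subgroup X} (hT : IsSyl 2 T (big X))
    (hK : Cfsg.IsPComponent 2 K) : centralizer (T : Set X) ≤ normalizer (K : Set X) := by
  haveI : Fact (Nat.Prime 2) := ⟨Nat.prime_two⟩
  intro g hg
  rw [← map_conj_eq_self_iff]
  by_contra hne
  set K' := K.map (MulAut.conj g).toMonoidHom with hK'def
  have hK' : Cfsg.IsPComponent 2 K' := Components.pComponent_map_equiv _ hK
  set π := QuotientGroup.mk' (Cfsg.pPrimeCore 2 X) with hπ
  have hKb : K ≤ big X := le_sup_of_le_left (Components.pComponent_le_pLayer hK)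
  have hS : IsSyl 2 (T ⊓ K) K := isSyl_inf_subnormal hT hKb hK.1
  have hle : T ⊓ K ≤ K' := by
    intro t ht
    refine ⟨t, ht.2, ?_⟩
    show g * t * g⁻¹ = t
    rw [← mem_centralizer_iff.1 hg t ht.1, mul_inv_cancel_right]
  have hcomm : ⁅K.map π, K'.map π⁆ = ⊥ :=
    Components.component_commute hK.2.1 hK'.2.1 fun h =>
      hne ((Components.pComponent_eq_iff hK' hK).2 h.symm)
  have hc : (T ⊓ K).map π ≤ centralizer ((K.map π : Subgroup _) : Set (X ⧸ Cfsg.pPrimeCore 2 X)) :=
    (map_mono hle).trans (le_centralizer_iff.1 (commutator_eq_bot_iff_le_centralizer.1 hcomm))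
  have hSb : IsSyl 2 ((T ⊓ K).map π) (K.map π) := by
    refine ⟨map_mono hS.le, hS.isPGroup.map _, fun R hR hRq hSR => ?_⟩
    refine (eq_of_le_of_card_ge hSR ?_).symm
    have h1 : ((T ⊓ K).map π).relIndex R ∣ (T ⊓ K).relIndex K := by
      refine (relIndex_dvd_of_le_left _ le_rfl).trans ?_
      have h2 : ((T ⊓ K).map π).relIndex R * R.relIndex (K.map π)
          = ((T ⊓ K).map π).relIndex (K.map π) := relIndex_mul_relIndex _ _ _ hSR hR
      refine (Dvd.intro _ h2).trans ?_
      have e : ((T ⊓ K).subgroupOf K).map (π.subgroupMap K)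
          = ((T ⊓ K).map π).subgroupOf (K.map π) := by
        ext y
        constructor
        · rintro ⟨x, hx, rfl⟩
          exact mem_subgroupOf.2 ⟨x, mem_subgroupOf.1 hx, rfl⟩
        · intro hy
          obtain ⟨x, hx, hxy⟩ := mem_subgroupOf.1 hy
          exact ⟨⟨x, hx.2⟩, mem_subgroupOf.2 hx, Subtype.ext hxy⟩
      rw [relIndex, ← e]
      exact index_map_dvd _ (π.subgroupMap_surjective K)
    obtain ⟨n, hn⟩ := IsPGroup.iff_card.1 hRq
    have h3 : ((T ⊓ K).map π).relIndex R ∣ Nat.card R := index_dvd_card _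
    rw [hn] at h3
    obtain ⟨m, -, hm⟩ := (Nat.dvd_prime_pow Nat.prime_two).1 h3
    rcases m.eq_zero_or_pos with rfl | hpos
    · rw [pow_zero] at hm
      exact Nat.le_of_dvd Nat.card_pos (card_dvd_of_le (relIndex_eq_one.1 hm))
    · exact absurd ((dvd_pow_self 2 hpos.ne').trans (hm ▸ h1)) hS.not_dvd_relIndex
  obtain ⟨P, hP⟩ := hSb.exists_sylow
  have hPc : (P : Subgroup (K.map π)) ≤ center _ := fun y hy => mem_center_iff.2 fun z =>
    Subtype.ext (mem_centralizer_iff.1 (hc (hP ▸ ⟨y, hy, rfl⟩)) z z.2)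
  have hbot := central_sylow_eq_bot P hPc hK.2.1.2.1
  have hd := Components.component_card_dvd_of_pPrimeCore_eq_bot
    Cores.pPrimeCore_quotient_pPrimeCore_eq_bot hK.2.1
  have := P.not_dvd_index
  rw [hbot, index_bot] at this
  exact this hd

theorem pComponent_normal_in_extended {K : Subgroup X} (hK : Cfsg.IsPComponent 2 K) :
    K ≤ Cfsg.extendedTwoLayer X ∧ (K.subgroupOf (Cfsg.extendedTwoLayer X)).Normal := by
  haveI : Fact (Nat.Prime 2) := ⟨Nat.prime_two⟩
  refine ⟨(Components.pComponent_le_pLayer hK).trans (le_sup_of_le_left le_sup_left),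
    normal_subgroupOf_of_le_normalizer ?_⟩
  obtain ⟨T, hT, -⟩ := exists_isSyl_ge (q := 2) (X := big X) IsPGroup.of_bot bot_le
  rw [extended_eq hT]
  refine sup_le (sup_le (Components.pLayer_le_iff.2 fun L hL =>
    Components.pComponent_normalizes hK hL) ?_) ?_
  · refine le_trans (fun o ho => ?_) (Components.pComponent_normalizer hK)
    rw [mem_comap]
    have ho' : QuotientGroup.mk' (Cfsg.pPrimeCore 2 X) o = 1 := by
      rw [← MonoidHom.mem_ker, QuotientGroup.ker_mk']; exact ho
    rw [ho']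
    exact one_mem _
  · exact (coreC_le_centralizer T).trans (centralizer_le_normalizer_pComponent hT hK)

end Cfsg.Agent.Signalizer.ExtLayer
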