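import Cfsg.Agent.Signalizer.ConstrainedCores

/-!
The cores of involution centralizers generate an odd order subgroup when all 2-locals are
2-constrained and `SCN₃(2)` is nonempty, given the signalizer functor theorem and the odd order
theorem.
-/

set_option autoImplicit false

open Subgroup
open Cfsg.Agent

namespace Cfsg.Agent.Signalizer.ConstrainedCores

universe u

theorem cores_generate {G : Type u} [Group G] [Finite G] (hSFT : TwoSFTProp.{u})
    (hFT : ∀ H : Subgroup G, Odd (Nat.card H) → Group.IsSolvable H)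
    (h2c : ∀ T : Subgroup G, IsPGroup 2 T → T ≠ ⊥ →
      Cfsg.IsPConstrained 2 ↥(Subgroup.normalizer (T : Set G)))
    (S : Sylow 2 G) (A : Subgroup ↥(S : Subgroup G)) (hAn : A.Normal)
    (hAC : Subgroup.centralizer (A : Set ↥(S : Subgroup G)) = A) (hA3 : ¬ Cfsg.PRankLE 2 2 ↥A)
    (S' : Sylow 2 G) :
    ∃ W : Subgroup G, Odd (Nat.card ↥W) ∧
      ∀ B : Subgroup G, B ≤ (S' : Subgroup G) → ¬ Cfsg.PRankLE 2 1 ↥B →
        W = (⨆ b : {b : G // b ∈ B ∧ b ≠ 1}, Cfsg.centralizerPPrimeCore 2 (b : G)) ∧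
        Subgroup.normalizer (B : Set G) ≤ Subgroup.normalizer (W : Set G) := by
  set A' := A.map (S : Subgroup G).subtype with hA'
  have hscn : Cfsg.IsSCN (S : Subgroup G) A' := by
    refine ⟨map_subtype_le A, fun s hs n => ⟨?_, ?_⟩, le_antisymm ?_ ?_⟩
    · rintro ⟨a, ha, rfl⟩
      exact ⟨⟨s, hs⟩ * a * ⟨s, hs⟩⁻¹, hAn.conj_mem a ha _, rfl⟩
    · rintro ⟨a, ha, he⟩
      refine ⟨⟨s, hs⟩⁻¹ * a * ⟨s, hs⟩, hAn.conj_mem' a ha _, ?_⟩
      simp only [map_mul, map_inv, he, Subgroup.coe_subtype]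
      group
    · rintro x ⟨hxS, hxC⟩
      refine ⟨⟨x, hxS⟩, hAC.le ?_, rfl⟩
      intro a ha
      exact Subtype.ext (hxC a ⟨a, ha, rfl⟩)
    · rintro _ ⟨a, ha, rfl⟩
      refine ⟨a.2, ?_⟩
      rintro _ ⟨b, hb, rfl⟩
      exact congrArg Subtype.val ((hAC.ge ha) b hb)
  have hA3' : ¬ Cfsg.PRankLE 2 2 ↥A' := by
    obtain ⟨F, hFA, hF, hF8⟩ := Components.exists_elemAb_of_not_rankLE hA3
    refine Components.not_pRankLE_of_le (map_mono hFA) (F := F.map (S : Subgroup G).subtype) ?_ ?_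
    · refine ⟨⟨⟨?_⟩⟩, ?_⟩
      · rintro ⟨_, x, hx, rfl⟩ ⟨_, y, hy, rfl⟩
        exact Subtype.ext (congrArg (fun z : ↥(S : Subgroup G) => (z : G)) (Signalizer.elemAb_comm hF hx hy))
      · rintro _ ⟨x, hx, rfl⟩
        rw [← map_pow, hF.2 x hx, map_one]
    · rw [card_map_of_injective (S : Subgroup G).subtype_injective]
      exact lt_of_lt_of_le (by norm_num) hF8
  obtain ⟨B, -, hSB, hBc, hB2, hB8⟩ :=
    CharTwo.exists_elementary_of_scn S.isPGroup' hscn hA3'
  exact exists_core_subgroup hSFT hFT (isPConstrained_centralizer h2c) S hSB hBc hB2 hB8 S'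

end Cfsg.Agent.Signalizer.ConstrainedCores
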