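import Cfsg.Agent.Coprime.Generation
import Cfsg.Agent.Coprime.Action
import Mathlib.GroupTheory.SpecificGroups.Cyclic

/-!
# Fixed points in a group generated by commutators

A finite abelian group `A` acts coprimely on `Y`.  `Y` is generated by the centralizers of the
subgroups of `A` with cyclic quotient; if `Y = [Y, A]` is solvable, then for `B ≤ A` the fixed
points `C_Y(B)` are generated by the `C_Y(B) ∩ [C_Y(B₀), A]` with `B/B₀` cyclic.
-/

set_option autoImplicit false
set_option linter.unusedSectionVars false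

namespace Cfsg.Agent.Signalizer

open Subgroup
open scoped Pointwise commutatorElement

variable {G : Type*} [Group G]

/-- `A` is generated by its subgroup `B` and one more element. -/
def HasCyclicQuot (B A : Subgroup G) : Prop := B ≤ A ∧ ∃ a ∈ A, A ≤ B ⊔ zpowers a

theorem isCyclic_quotient_inf {A B B₀ : Subgroup G} (hA : IsMulCommutative A) (hB : B ≤ A)
    (h : HasCyclicQuot B₀ A) [((B₀ ⊓ B).subgroupOf B).Normal] :
    IsCyclic (↥B ⧸ (B₀ ⊓ B).subgroupOf B) := by
  obtain ⟨h₀, a, ha, hgen⟩ := h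
  have hn : (B₀.subgroupOf A).Normal := ⟨fun x hx g => by
    rwa [hA.is_comm.comm g x, mul_inv_cancel_right]⟩
  haveI : IsCyclic (↥A ⧸ B₀.subgroupOf A) := by
    refine ⟨⟨QuotientGroup.mk ⟨a, ha⟩, fun q => ?_⟩⟩
    obtain ⟨⟨x, hx⟩, rfl⟩ := QuotientGroup.mk_surjective q
    have hz : zpowers a ≤ normalizer (B₀ : Set G) := zpowers_le.2 (mem_normalizer_iff.2 fun y => by
      refine ⟨fun hy => ?_, fun hy => ?_⟩
      · have he : a * y = y * a :=
          congrArg Subtype.val (hA.is_comm.comm (⟨a, ha⟩ : A) ⟨y, h₀ hy⟩)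
        rwa [he, mul_inv_cancel_right]
      · have hy' : y ∈ A := by simpa [mul_assoc] using A.mul_mem (A.mul_mem (A.inv_mem ha) (h₀ hy)) ha
        have he : a * y = y * a :=
          congrArg Subtype.val (hA.is_comm.comm (⟨a, ha⟩ : A) ⟨y, hy'⟩)
        rwa [he, mul_inv_cancel_right] at hy)
    have hx' : x ∈ zpowers a ⊔ B₀ := sup_comm B₀ (zpowers a) ▸ hgen hx
    rw [← SetLike.mem_coe, coe_mul_of_left_le_normalizer_right _ _ hz] at hx'
    obtain ⟨_, ⟨j, rfl⟩, b, hb, rfl⟩ := hx'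
    refine ⟨j, ?_⟩
    show (QuotientGroup.mk ⟨a, ha⟩ : ↥A ⧸ B₀.subgroupOf A) ^ j = _
    rw [← QuotientGroup.mk_zpow, QuotientGroup.eq, mem_subgroupOf]
    simpa using hb
  let f : B →* ↥A ⧸ B₀.subgroupOf A := (QuotientGroup.mk' _).comp (inclusion hB)
  have hker : (B₀ ⊓ B).subgroupOf B = f.ker := by
    ext x
    rw [MonoidHom.mem_ker, mem_subgroupOf]
    show (x : G) ∈ B₀ ⊓ B ↔ QuotientGroup.mk (inclusion hB x) = 1
    rw [QuotientGroup.eq_one_iff, mem_subgroupOf]
    exact ⟨fun h => h.1, fun h => ⟨h, x.2⟩⟩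
  exact isCyclic_of_injective (QuotientGroup.lift _ f hker.le)
    ((injective_iff_map_eq_one _).2 fun q => by
      obtain ⟨x, rfl⟩ := QuotientGroup.mk_surjective q
      intro hx
      rw [QuotientGroup.eq_one_iff, hker]
      exact hx)

variable [Finite G]

/-- One step: centralizers of the elements outside `B` generate `C_X(B)` if `A/B` is not cyclic. -/
theorem centralizer_le_of_not_hasCyclicQuot {A B X H : Subgroup G} (hA : IsMulCommutative A)
    (hBA : B ≤ A) (hcyc : ¬ HasCyclicQuot B A) (hAX : A ≤ normalizer (X : Set G))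
    (hcop : (Nat.card A).Coprime (Nat.card X))
    (h : ∀ a ∈ A, a ∉ B → X ⊓ centralizer ((B ⊔ zpowers a : Subgroup G) : Set G) ≤ H) :
    X ⊓ centralizer (B : Set G) ≤ H := by
  set N : Subgroup G := centralizer (B : Set G) with hN
  set W : Subgroup G := X ⊓ N with hW
  have hAN : A ≤ N := fun x hx => mem_centralizer_iff.2 fun b hb =>
    congrArg Subtype.val (hA.is_comm.comm (⟨b, hBA hb⟩ : A) ⟨x, hx⟩)
  haveI hn : (B.subgroupOf N).Normal := ⟨fun b hb g => by
    rw [mem_subgroupOf] at hb ⊢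
    simp only [coe_mul, InvMemClass.coe_inv]
    rwa [← mem_centralizer_iff.1 g.2 b hb, mul_inv_cancel_right]⟩
  set π := QuotientGroup.mk' (B.subgroupOf N) with hπ
  set A' := (A.subgroupOf N).map π with hA'
  set W' := (W.subgroupOf N).map π with hW'
  haveI : IsMulCommutative A' := ⟨⟨by
    rintro ⟨_, x, hx, rfl⟩ ⟨_, y, hy, rfl⟩
    refine Subtype.ext ?_
    show π x * π y = π y * π x
    rw [← map_mul, ← map_mul]
    have he : (x : G) * y = y * x := congrArg Subtype.val
      (hA.is_comm.comm (⟨(x : G), hx⟩ : A) ⟨(y : G), hy⟩)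
    exact congrArg π (Subtype.ext he)⟩⟩
  have hA'nc : ¬ IsCyclic A' := by
    rintro ⟨⟨⟨g, hg⟩, hgen⟩⟩
    obtain ⟨a, ha, rfl⟩ := hg
    refine hcyc ⟨hBA, a, ha, fun x hx => ?_⟩
    obtain ⟨j, hj⟩ := hgen ⟨π ⟨x, hAN hx⟩, _, hx, rfl⟩
    have hj' : π a ^ j = π ⟨x, hAN hx⟩ := by
      simpa using congrArg Subtype.val hj
    rw [← map_zpow, hπ, QuotientGroup.mk'_apply, QuotientGroup.mk'_apply, QuotientGroup.eq,
      mem_subgroupOf] at hj'
    simp only [coe_mul, InvMemClass.coe_inv, coe_zpow] at hj'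
    have h2 : x = (a : G) ^ j * (((a : G) ^ j)⁻¹ * x) := by group
    rw [h2]
    exact mul_mem (mem_sup_right (zpow_mem_zpowers _ j)) (mem_sup_left hj')
  have hAW' : A' ≤ normalizer (W' : Set _) := by
    rintro _ ⟨a, ha, rfl⟩
    refine le_normalizer_map π ⟨a, ?_, rfl⟩
    have hWA : A ≤ normalizer (W : Set G) :=
      (le_inf hAX (hAN.trans Subgroup.le_normalizer)).trans inf_normalizer_le_normalizer_inf
    exact le_normalizer_comap N.subtype (mem_comap.2 (hWA ha))
  have hWX : Nat.card (W.subgroupOf N) ∣ Nat.card X := by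
    rw [Nat.card_congr (subgroupOfEquivOfLe (inf_le_right : W ≤ N)).toEquiv]
    exact card_dvd_of_le inf_le_left
  have hcop' : (Nat.card A').Coprime (Nat.card W') := by
    refine (hcop.coprime_dvd_left ?_).coprime_dvd_right ((card_map_dvd _ π).trans hWX)
    refine (card_map_dvd _ π).trans ?_
    rw [Nat.card_congr (subgroupOfEquivOfLe hAN).toEquiv]
  have hgen := Coprime.iSup_centralizer_eq hA'nc hAW' hcop'
  have hle : W' ≤ ((H ⊓ W).subgroupOf N).map π := by
    rw [← hgen]
    refine iSup₂_le fun c hc => ?_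
    obtain ⟨⟨a, ha, rfl⟩, hc1⟩ := hc
    rintro _ ⟨⟨w, hw, rfl⟩, hwc⟩
    have haB : (a : G) ∉ B := fun haB => hc1 ((QuotientGroup.eq_one_iff a).2 haB)
    refine ⟨w, ⟨h a ha haB ⟨hw.1, ?_⟩, hw⟩, rfl⟩
    have hcomm : ⁅(a : G), (w : G)⁆ ∈ B := by
      have h1 : π ⁅a, w⁆ = 1 := by
        rw [map_commutatorElement, commutatorElement_eq_one_iff_mul_comm]
        exact (mem_centralizer_singleton_iff.1 hwc).symm
      exact mem_subgroupOf.1 ((QuotientGroup.eq_one_iff ⁅a, w⁆).1 h1)
    have hcX : ⁅(a : G), (w : G)⁆ ∈ X := by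
      rw [commutatorElement_def]
      exact X.mul_mem ((mem_normalizer_iff.1 (hAX ha) w).1 hw.1) (X.inv_mem hw.1)
    have h1 : ⁅(a : G), (w : G)⁆ = 1 := by
      have : ⁅(a : G), (w : G)⁆ ∈ A ⊓ X := ⟨hBA hcomm, hcX⟩
      rwa [inf_eq_bot_of_coprime hcop, mem_bot] at this
    have hca : Commute (a : G) (w : G) := commutatorElement_eq_one_iff_commute.1 h1
    suffices hle : B ⊔ zpowers (a : G) ≤ centralizer ({(w : G)} : Set G) from
      mem_centralizer_iff.2 fun b hb => mem_centralizer_singleton_iff.1 (hle hb)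
    exact sup_le (fun b hb => mem_centralizer_singleton_iff.2 (mem_centralizer_iff.1 hw.2 b hb))
      (zpowers_le.2 (mem_centralizer_singleton_iff.2 hca.eq))
  intro x hx
  obtain ⟨y, hy, hyx⟩ := hle ⟨⟨x, hx.2⟩, hx, rfl⟩
  rw [hπ, QuotientGroup.mk'_apply, QuotientGroup.mk'_apply, QuotientGroup.eq, mem_subgroupOf] at hyx
  simp only [coe_mul, InvMemClass.coe_inv] at hyx
  obtain ⟨hyH, hyW⟩ := hy
  have hb : (y : G)⁻¹ * x ∈ A ⊓ X :=
    ⟨hBA hyx, X.mul_mem (X.inv_mem hyW.1) hx.1⟩
  rw [inf_eq_bot_of_coprime hcop, mem_bot, inv_mul_eq_one] at hb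
  rwa [← hb]

/-- An abelian group acting coprimely on `X`: the centralizers of the subgroups with cyclic
quotient generate `X`. -/
theorem le_of_forall_hasCyclicQuot {A X H : Subgroup G} (hA : IsMulCommutative A)
    (hAX : A ≤ normalizer (X : Set G)) (hcop : (Nat.card A).Coprime (Nat.card X))
    (h : ∀ B : Subgroup G, HasCyclicQuot B A → X ⊓ centralizer (B : Set G) ≤ H) : X ≤ H := by
  suffices key : ∀ n, ∀ B : Subgroup G, B ≤ A → Nat.card A - Nat.card B = n →
      X ⊓ centralizer (B : Set G) ≤ H by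
    refine le_trans (le_inf le_rfl ?_) (key _ ⊥ bot_le rfl)
    intro x _
    exact mem_centralizer_iff.2 fun z hz => by
      rw [Subgroup.coe_bot, Set.mem_singleton_iff] at hz
      rw [hz, one_mul, mul_one]
  intro n
  induction n using Nat.strong_induction_on with
  | _ n ih =>
    intro B hBA hn
    by_cases hc : HasCyclicQuot B A
    · exact h B hc
    refine centralizer_le_of_not_hasCyclicQuot hA hBA hc hAX hcop fun a ha haB => ?_
    have hle : B ⊔ zpowers a ≤ A := sup_le hBA (zpowers_le.2 ha)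
    have hlt : Nat.card B < Nat.card (B ⊔ zpowers a : Subgroup G) :=
      lt_of_le_of_ne (Nat.le_of_dvd Nat.card_pos (card_dvd_of_le le_sup_left)) fun he =>
        haB ((eq_of_le_of_card_ge (le_sup_left : B ≤ B ⊔ zpowers a) he.ge).symm ▸
          mem_sup_right (mem_zpowers a))
    have h1 : Nat.card (B ⊔ zpowers a : Subgroup G) ≤ Nat.card A :=
      Nat.le_of_dvd Nat.card_pos (card_dvd_of_le hle)
    exact ih _ (by omega) _ hle rfl

/-- The fixed points of `A` on a solvable `Y = [Y, A]`. -/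
theorem centralizer_le_of_commutator_eq {A Y H : Subgroup G} (hA : IsMulCommutative A)
    (hAY : A ≤ normalizer (Y : Set G)) (hcop : (Nat.card A).Coprime (Nat.card Y))
    (hsol : Group.IsSolvable Y) (hYA : ⁅Y, A⁆ = Y)
    (h : ∀ B₀ : Subgroup G, HasCyclicQuot B₀ A →
      Y ⊓ centralizer (A : Set G) ⊓ ⁅Y ⊓ centralizer (B₀ : Set G), A⁆ ≤ H) :
    Y ⊓ centralizer (A : Set G) ≤ H := by
  induction hn : Nat.card Y using Nat.strong_induction_on generalizing Y with
  | _ n ih =>
    subst hn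
    rcases eq_or_ne Y ⊥ with rfl | hne
    · simp
    haveI := hsol
    have hs : Group.IsSolvable A ∨ Group.IsSolvable Y := Or.inr hsol
    have hD : ⁅Y, Y⁆ < Y := by
      haveI : Nontrivial Y := (nontrivial_iff_ne_bot Y).2 hne
      rw [← map_subtype_commutator Y]
      conv_rhs => rw [← Y.range_subtype, MonoidHom.range_eq_map]
      exact (Subgroup.map_lt_map_iff_of_injective Y.subtype_injective).2
        (Group.IsSolvable.commutator_lt_top_of_nontrivial Y)
    obtain ⟨M, ⟨hDM, hMY, hAM⟩, hmax⟩ := Set.Finite.exists_maximal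
      (s := {M : Subgroup G | ⁅Y, Y⁆ ≤ M ∧ M < Y ∧ A ≤ normalizer (M : Set G)})
      (Set.toFinite _) ⟨⁅Y, Y⁆, le_rfl, hD,
        (le_inf hAY hAY).trans (Coprime.normalizer_inf_le_normalizer_commutator Y Y)⟩
    have hnY : ∀ L : Subgroup G, ⁅Y, Y⁆ ≤ L → L ≤ Y → Y ≤ normalizer (L : Set G) :=
      fun L h1 h2 y hy => by
        refine mem_normalizer_iff.2 fun z => ⟨fun hz => ?_, fun hz => ?_⟩
        · have h3 : ⁅y, z⁆ ∈ L := h1 (commutator_mem_commutator hy (h2 hz))
          have h4 : y * z * y⁻¹ = ⁅y, z⁆ * z := by rw [commutatorElement_def]; group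
          rw [h4]
          exact L.mul_mem h3 hz
        · have h3 : ⁅y⁻¹, y * z * y⁻¹⁆ ∈ L := h1 (commutator_mem_commutator (Y.inv_mem hy) (h2 hz))
          have h4 : z = ⁅y⁻¹, y * z * y⁻¹⁆ * (y * z * y⁻¹) := by rw [commutatorElement_def]; group
          rw [h4]
          exact L.mul_mem h3 hz
    have hYM : Y ≤ normalizer (M : Set G) := hnY M hDM hMY.le
    obtain ⟨B, hB, hBM⟩ : ∃ B, HasCyclicQuot B A ∧ ¬ Y ⊓ centralizer (B : Set G) ≤ M := by
      by_contra hc
      push Not at hc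
      exact hMY.not_ge (le_of_forall_hasCyclicQuot hA hAY hcop hc)
    have hAB : A ≤ centralizer (B : Set G) := fun x hx => mem_centralizer_iff.2 fun b hb =>
      congrArg Subtype.val (hA.is_comm.comm (⟨b, hB.1 hb⟩ : A) ⟨x, hx⟩)
    have hACB : A ≤ normalizer ((Y ⊓ centralizer (B : Set G) : Subgroup G) : Set G) :=
      (le_inf hAY (hAB.trans Subgroup.le_normalizer)).trans inf_normalizer_le_normalizer_inf
    have hsup : M ⊔ (Y ⊓ centralizer (B : Set G)) = Y := by
      refine (eq_of_le_of_not_lt (sup_le hMY.le inf_le_left) fun hlt => hBM ?_)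
      exact (le_sup_right : _ ≤ M ⊔ (Y ⊓ centralizer (B : Set G))).trans
        (hmax ⟨hDM.trans le_sup_left, hlt,
          (le_inf hAM hACB).trans (normalizer_inf_normalizer_le_normalizer_sup _ _)⟩ le_sup_left)
    set N := ⁅M, B⁆ with hN
    set K := ⁅Y ⊓ centralizer (B : Set G), A⁆ with hK
    set S := Y ⊓ centralizer (A : Set G) with hS
    have hMA : A ≤ normalizer (N : Set G) := (le_inf hAM (hAB.trans
      (centralizer_le_normalizer _))).trans (Coprime.normalizer_inf_le_normalizer_commutator M B)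
    have hBN : Y ⊓ centralizer (B : Set G) ≤ normalizer (N : Set G) := (le_inf
      (inf_le_left.trans hYM) (inf_le_right.trans (centralizer_le_normalizer _))).trans
        (Coprime.normalizer_inf_le_normalizer_commutator M B)
    have hKC : K ≤ Y ⊓ centralizer (B : Set G) := Coprime.commutator_le_of_le_normalizer hACB
    have hcopY : ∀ {L : Subgroup G}, L ≤ Y → (Nat.card A).Coprime (Nat.card L) := fun hL =>
      hcop.coprime_dvd_right (card_dvd_of_le hL)
    have hMB : ⁅M, B⁆ ≤ M := Coprime.commutator_le_of_le_normalizer (hB.1.trans hAM)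
    have hMdec : N ⊔ (M ⊓ centralizer (B : Set G)) = M :=
      Coprime.commutator_sup_centralizer (hB.1.trans hAM)
        ((hcopY hMY.le).coprime_dvd_left (card_dvd_of_le hB.1))
        (Or.inr (Coprime.isSolvable_of_le hMY.le hsol))
    have hCdec : K ⊔ (Y ⊓ centralizer (B : Set G) ⊓ centralizer (A : Set G)) =
        Y ⊓ centralizer (B : Set G) :=
      Coprime.commutator_sup_centralizer hACB (hcopY inf_le_left)
        (Or.inr (Coprime.isSolvable_of_le inf_le_left hsol))
    have hYdec : Y ≤ N ⊔ K ⊔ S := by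
      have hC : Y ⊓ centralizer (B : Set G) ≤ N ⊔ K ⊔ S := by
        rw [← hCdec]
        exact sup_le (le_sup_right.trans le_sup_left)
          ((inf_le_inf_right _ inf_le_left).trans le_sup_right)
      conv_lhs => rw [← hsup]
      refine sup_le ?_ hC
      conv_lhs => rw [← hMdec]
      exact sup_le (le_sup_left.trans le_sup_left)
        ((inf_le_inf_right _ hMY.le).trans hC)
    have hSC : S ≤ Y ⊓ centralizer (B : Set G) := inf_le_inf_left _ (centralizer_le hB.1)
    have hST : S ≤ normalizer ((N ⊔ K : Subgroup G) : Set G) :=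
      (le_inf (hSC.trans hBN) (hSC.trans (Coprime.le_normalizer_commutator_left _ A))).trans
        (normalizer_inf_normalizer_le_normalizer_sup _ _)
    have hAT : A ≤ normalizer ((N ⊔ K : Subgroup G) : Set G) :=
      (le_inf hMA (Coprime.le_normalizer_commutator_right _ A)).trans
        (normalizer_inf_normalizer_le_normalizer_sup _ _)
    have hYT : Y ≤ N ⊔ K := by
      conv_lhs => rw [← hYA]
      refine commutator_le.2 fun y hy a ha => ?_
      have hy' := hYdec hy
      rw [← SetLike.mem_coe, sup_comm, coe_mul_of_left_le_normalizer_right _ _ hST] at hy'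
      obtain ⟨s, hs, t, ht, rfl⟩ := hy'
      have hta : ⁅t, a⁆ ∈ N ⊔ K := by
        rw [commutatorElement_def, mul_assoc, mul_assoc, ← mul_assoc a]
        exact mul_mem ht ((mem_normalizer_iff.1 (hAT ha) _).1 (inv_mem ht))
      have he : ⁅s * t, a⁆ = s * ⁅t, a⁆ * s⁻¹ := by
        have h1 : a * s⁻¹ * a⁻¹ = s⁻¹ := by
          rw [mem_centralizer_iff.1 ((centralizer (A : Set G)).inv_mem hs.2) a ha,
            mul_inv_cancel_right]
        simp only [commutatorElement_def, mul_inv_rev]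
        calc s * t * a * (t⁻¹ * s⁻¹) * a⁻¹ = s * (t * a * t⁻¹ * a⁻¹) * (a * s⁻¹ * a⁻¹) := by group
          _ = _ := by rw [h1]
      rw [he]
      exact (mem_normalizer_iff.1 (hST hs) _).1 hta
    intro z hz
    have hz' := hYT hz.1
    rw [← SetLike.mem_coe, sup_comm, coe_mul_of_left_le_normalizer_right _ _ (hKC.trans hBN)] at hz'
    obtain ⟨k, hk, m, hm, rfl⟩ := hz'
    obtain ⟨k', hk', m', hm', he⟩ := Coprime.exists_mul_fixed (Coprime.le_normalizer_commutator_right _ A)
      hMA (hcopY (inf_le_left.trans (hKC.trans inf_le_left)))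
      (Or.inr (Coprime.isSolvable_of_le (inf_le_left.trans (hKC.trans inf_le_left)) hsol)) hk hm hz.2
    show k * m ∈ H
    rw [he]
    refine H.mul_mem (h B hB ⟨⟨(hKC hk'.1).1, hk'.2⟩, hk'.1⟩) ?_
    have hM1 : ⁅M, A⁆ ≤ M := Coprime.commutator_le_of_le_normalizer hAM
    have hlt : Nat.card (⁅M, A⁆ : Subgroup G) < Nat.card Y := by
      refine lt_of_le_of_lt (Nat.le_of_dvd Nat.card_pos (card_dvd_of_le hM1)) ?_
      exact lt_of_le_of_ne (Nat.le_of_dvd Nat.card_pos (card_dvd_of_le hMY.le))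
        fun he => hMY.ne (eq_of_le_of_card_ge hMY.le he.ge)
    refine ih _ hlt (Coprime.le_normalizer_commutator_right _ A) (hcopY (hM1.trans hMY.le))
      (Coprime.isSolvable_of_le (hM1.trans hMY.le) hsol)
      (Coprime.commutator_commutator_of_solvable hAM (hcopY hMY.le)
        (Or.inr (Coprime.isSolvable_of_le hMY.le hsol)))
      (fun B₀ hB₀ => (inf_le_inf (inf_le_inf_right _ (hM1.trans hMY.le))
        (commutator_mono (inf_le_inf_right _ (hM1.trans hMY.le)) le_rfl)).trans (h B₀ hB₀))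
      rfl ⟨commutator_mono le_rfl hB.1 hm'.1, hm'.2⟩

/-- For `B ≤ A` the subgroup `C_Y(B)` is generated by the `C_Y(B) ∩ [C_Y(B₀), A]` with `B/B₀`
cyclic. -/
theorem inf_centralizer_eq_iSup_fixed_commutator {A B Y : Subgroup G} (hA : IsMulCommutative A)
    (hB : B ≤ A) (hAY : A ≤ normalizer (Y : Set G)) (hcop : (Nat.card A).Coprime (Nat.card Y))
    (hsol : Group.IsSolvable Y) (hYA : ⁅Y, A⁆ = Y) :
    Y ⊓ centralizer (B : Set G) =
      ⨆ B₀ : {B₀ : Subgroup G // B₀ ≤ B ∧ ∀ [(B₀.subgroupOf B).Normal],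
        IsCyclic (↥B ⧸ B₀.subgroupOf B)},
        Y ⊓ centralizer (B : Set G) ⊓ ⁅Y ⊓ centralizer ((B₀ : Subgroup G) : Set G), A⁆ := by
  refine le_antisymm ?_ (iSup_le fun B₀ => inf_le_left)
  set R := ⨆ B₀ : {B₀ : Subgroup G // B₀ ≤ B ∧ ∀ [(B₀.subgroupOf B).Normal],
        IsCyclic (↥B ⧸ B₀.subgroupOf B)},
        Y ⊓ centralizer (B : Set G) ⊓ ⁅Y ⊓ centralizer ((B₀ : Subgroup G) : Set G), A⁆ with hR
  have hAB : A ≤ centralizer (B : Set G) := fun x hx => mem_centralizer_iff.2 fun b hb =>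
    congrArg Subtype.val (hA.is_comm.comm (⟨b, hB hb⟩ : A) ⟨x, hx⟩)
  have hACB : A ≤ normalizer ((Y ⊓ centralizer (B : Set G) : Subgroup G) : Set G) :=
    (le_inf hAY (hAB.trans Subgroup.le_normalizer)).trans inf_normalizer_le_normalizer_inf
  have hBB : ∀ [(B.subgroupOf B).Normal], IsCyclic (↥B ⧸ B.subgroupOf B) := by
    intro _
    haveI : Subsingleton (↥B ⧸ B.subgroupOf B) := by
      rw [Subgroup.subgroupOf_self]; exact QuotientGroup.subsingleton_quotient_top
    exact isCyclic_of_subsingleton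
  conv_lhs => rw [← Coprime.commutator_sup_centralizer hACB
    (hcop.coprime_dvd_right (card_dvd_of_le inf_le_left))
    (Or.inr (Coprime.isSolvable_of_le inf_le_left hsol))]
  refine sup_le ?_ ?_
  · exact le_trans (le_inf (Coprime.commutator_le_of_le_normalizer hACB) le_rfl)
      (le_iSup (fun B₀ : {B₀ : Subgroup G // B₀ ≤ B ∧ ∀ [(B₀.subgroupOf B).Normal],
        IsCyclic (↥B ⧸ B₀.subgroupOf B)} =>
        Y ⊓ centralizer (B : Set G) ⊓ ⁅Y ⊓ centralizer ((B₀ : Subgroup G) : Set G), A⁆)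
        ⟨B, le_rfl, hBB⟩)
  · refine (inf_le_inf_right _ inf_le_left).trans
      (centralizer_le_of_commutator_eq hA hAY hcop hsol hYA fun B₀ hB₀ => ?_)
    refine le_trans (inf_le_inf (inf_le_inf_left _ (centralizer_le hB))
      (commutator_mono (inf_le_inf_left _ (centralizer_le (inf_le_left : B₀ ⊓ B ≤ B₀))) le_rfl))
      (le_iSup (fun B₁ : {B₁ : Subgroup G // B₁ ≤ B ∧ ∀ [(B₁.subgroupOf B).Normal],
        IsCyclic (↥B ⧸ B₁.subgroupOf B)} =>
        Y ⊓ centralizer (B : Set G) ⊓ ⁅Y ⊓ centralizer ((B₁ : Subgroup G) : Set G), A⁆)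
        ⟨B₀ ⊓ B, inf_le_right, fun {_} => isCyclic_quotient_inf hA hB hB₀⟩)

end Cfsg.Agent.Signalizer
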