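import Cfsg.Agent.Components.LocalBalance
import Cfsg.Agent.Components.EquivariantSFT
import Cfsg.Agent.Signalizer.CyclicQuotientGeneration
import Cfsg.Agent.S1301
import Cfsg.Agent.Signalizer.Functor
import Cfsg.Agent.Components.Bender

/-!
# The signalizer functor of a core-separated pair of four-groups

Solvability of the subgroups of odd order is taken as a hypothesis.
-/

set_option autoImplicit false
set_option linter.unusedSectionVars false
set_option linter.style.haveILetI false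

namespace Cfsg.Agent.Signalizer

open Subgroup Cfsg.Agent.Components
open scoped Pointwise commutatorElement

universe u

variable {G : Type u} [Group G] [Finite G]

/-- The image of a subgroup of `G` in `C / O(C)`. -/
def coreImage (C X : Subgroup G) : Subgroup (↥C ⧸ Cfsg.pPrimeCore 2 ↥C) :=
  (X.subgroupOf C).map (QuotientGroup.mk' (Cfsg.pPrimeCore 2 ↥C))

theorem coreImage_mono {C X Y : Subgroup G} (h : X ≤ Y) : coreImage C X ≤ coreImage C Y :=
  map_mono (comap_mono h)

theorem coreImage_sup {C X Y : Subgroup G} (hX : X ≤ C) (hY : Y ≤ C) :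
    coreImage C (X ⊔ Y) = coreImage C X ⊔ coreImage C Y := by
  rw [coreImage, Subgroup.subgroupOf_sup hX hY, Subgroup.map_sup]; rfl

theorem coreImage_commutator {C X Y : Subgroup G} (hX : X ≤ C) (hY : Y ≤ C) :
    coreImage C ⁅X, Y⁆ = ⁅coreImage C X, coreImage C Y⁆ := by
  rw [coreImage, coreImage, coreImage, ← Subgroup.map_commutator]
  congr 1
  refine map_injective C.subtype_injective ?_
  rw [Subgroup.map_commutator, map_subgroupOf_eq_of_le hX, map_subgroupOf_eq_of_le hY,
    map_subgroupOf_eq_of_le (commutator_le.2 fun x hx y hy => by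
      rw [commutatorElement_def]
      exact C.mul_mem (C.mul_mem (C.mul_mem (hX hx) (hY hy)) (C.inv_mem (hX hx)))
        (C.inv_mem (hY hy)))]

theorem coreImage_eq_bot_iff {C X : Subgroup G} (hX : X ≤ C) :
    coreImage C X = ⊥ ↔ X ≤ (Cfsg.pPrimeCore 2 ↥C).map C.subtype := by
  rw [coreImage, Subgroup.map_eq_bot_iff, QuotientGroup.ker_mk', ← Subgroup.map_subtype_le_map_subtype,
    map_subgroupOf_eq_of_le hX]

theorem coreImage_solvable {C X : Subgroup G} (hX : X ≤ C) (hs : Group.IsSolvable X) :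
    Group.IsSolvable (coreImage C X) := by
  have h : Group.IsSolvable (X.subgroupOf C) := by
    haveI := hs
    exact Group.isSolvable_of_isSolvable_injective
      (f := (subgroupOfEquivOfLe hX).toMonoidHom) (MulEquiv.injective _)
  exact isSolvable_map _ h

theorem le_normalizer_coreImage {C X Y : Subgroup G} (h : Y ≤ normalizer (X : Set G)) :
    coreImage C Y ≤ normalizer (coreImage C X : Set _) :=
  (map_mono ((comap_mono h).trans (le_normalizer_comap C.subtype))).trans (le_normalizer_map _)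

theorem coreImage_le_centralizer {C X Y : Subgroup G} (h : X ≤ centralizer (Y : Set G)) :
    coreImage C X ≤ centralizer (coreImage C Y : Set _) := by
  rintro _ ⟨x, hx, rfl⟩
  refine mem_centralizer_iff.2 ?_
  rintro _ ⟨y, hy, rfl⟩
  rw [← map_mul, ← map_mul]
  exact congrArg _ (Subtype.ext (mem_centralizer_iff.1 (h hx) _ hy))

theorem orderOf_mk_core {C : Subgroup G} {a : C} (ha : orderOf (a : G) = 2) :
    orderOf (QuotientGroup.mk' (Cfsg.pPrimeCore 2 ↥C) a) = 2 := by
  haveI : Fact (Nat.Prime 2) := ⟨Nat.prime_two⟩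
  rw [Subgroup.orderOf_coe] at ha
  refine orderOf_eq_prime (by rw [← map_pow, ← ha, pow_orderOf_eq_one, map_one]) fun h => ?_
  have h1 := Cores.orderOf_coprime_of_mem_pPrimeCore ((QuotientGroup.eq_one_iff _).1 h)
  rw [ha] at h1
  norm_num at h1

/-- `O(C(a)) ∩ C` lands in `O(C(ā))`. -/
theorem coreImage_le_centralizerPPrimeCore {C : Subgroup G} {a : C} (ha : orderOf (a : G) = 2) :
    coreImage C (Cfsg.centralizerPPrimeCore 2 (a : G) ⊓ C) ≤
      Cfsg.centralizerPPrimeCore 2 (QuotientGroup.mk' (Cfsg.pPrimeCore 2 ↥C) a) := by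
  haveI : Fact (Nat.Prime 2) := ⟨Nat.prime_two⟩
  set O := Cfsg.pPrimeCore 2 ↥C with hO
  set π := QuotientGroup.mk' O with hπ
  set W := Cfsg.centralizerPPrimeCore 2 (a : G) with hW
  refine le_pPrimeCore_map_of_normal ?_ ?_ ?_
  · rintro _ ⟨w, hw, rfl⟩
    rw [mem_centralizer_singleton_iff, ← map_mul, ← map_mul]
    refine congrArg π (Subtype.ext ?_)
    exact mem_centralizer_singleton_iff.mp (centralizerPPrimeCore_le (a : G) hw.1)
  · have hcop : (Nat.card (zpowers a)).Coprime (Nat.card O) := by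
      rw [Nat.card_zpowers, ← Subgroup.orderOf_coe, ha]
      exact Cores.pPrimeCore_coprime.symm
    have hcz := Coprime.centralizer_map_mk' (zpowers a) O hcop (Or.inl inferInstance)
    rw [MonoidHom.map_zpowers, centralizer_zpowers_eq, centralizer_zpowers_eq] at hcz
    rw [hπ, hcz]
    refine (map_mono ?_).trans (le_normalizer_map _)
    refine le_trans ?_ (le_normalizer_comap C.subtype)
    intro c hc
    refine mem_comap.2 (inf_normalizer_le_normalizer_inf ⟨?_, Subgroup.le_normalizer c.2⟩)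
    exact le_normalizer_centralizerPPrimeCore (a : G)
      (mem_centralizer_singleton_iff.mpr (congrArg Subtype.val (mem_centralizer_singleton_iff.mp hc)))
  · refine Nat.Coprime.coprime_dvd_left ?_ (centralizerPPrimeCore_coprime (p := 2) (a : G))
    refine (card_map_dvd _ π).trans ?_
    rw [Nat.card_congr (subgroupOfEquivOfLe (inf_le_right : W ⊓ C ≤ C)).toEquiv]
    exact card_dvd_of_le inf_le_left

/-- A part of `O(C(a)) ∩ C` which centralizes every component of `C / O(C)` lies in `O(C)`. -/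
theorem le_core_of_centralizes_components {C X : Subgroup G} {a : C} (ha : orderOf (a : G) = 2)
    (hX : X ≤ Cfsg.centralizerPPrimeCore 2 (a : G) ⊓ C)
    (h : ∀ L : Subgroup (↥C ⧸ Cfsg.pPrimeCore 2 ↥C), Cfsg.IsComponent L →
      ⁅L, coreImage C X⁆ = ⊥) :
    X ≤ (Cfsg.pPrimeCore 2 ↥C).map C.subtype := by
  haveI : Fact (Nat.Prime 2) := ⟨Nat.prime_two⟩
  rw [← coreImage_eq_bot_iff (hX.trans inf_le_right)]
  exact eq_bot_of_centralizes_components Cores.pPrimeCore_quotient_pPrimeCore_eq_bot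
    (orderOf_mk_core ha) ((coreImage_mono hX).trans (coreImage_le_centralizerPPrimeCore ha)) h

/-- If `B` centralizes `L` and `D` normalizes `L` then `[D, B]` centralizes `L`. -/
theorem commutator_le_centralizer_of_normalizes {Q : Type*} [Group Q] {L D B : Subgroup Q}
    (hD : D ≤ normalizer (L : Set Q)) (hB : B ≤ centralizer (L : Set Q)) :
    ⁅D, B⁆ ≤ centralizer (L : Set Q) := by
  refine commutator_le.2 fun d hd b hb => ?_
  rw [commutatorElement_def]
  refine mul_mem (mem_centralizer_iff.2 fun l hl => ?_) (inv_mem (hB hb))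
  have hl' : d⁻¹ * l * d ∈ L := by
    simpa using (mem_normalizer_iff.1 (hD (inv_mem hd)) l).1 hl
  have h1 := mem_centralizer_iff.1 (hB hb) _ hl'
  calc l * (d * b * d⁻¹) = d * ((d⁻¹ * l * d) * b) * d⁻¹ := by group
    _ = d * (b * (d⁻¹ * l * d)) * d⁻¹ := by rw [h1]
    _ = d * b * d⁻¹ * l := by group

/-- A component of `C / O(C)` is the image of a 2-component of `C`; if `B` acts trivially on it
modulo `O(C)`, its image centralizes it. -/
theorem exists_lift_component {C : Subgroup G} {L : Subgroup (↥C ⧸ Cfsg.pPrimeCore 2 ↥C)}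
    (hL : Cfsg.IsComponent L) :
    ∃ E : Subgroup ↥C, Cfsg.IsPComponent 2 E ∧ coreImage C (E.map C.subtype) = L := by
  haveI : Fact (Nat.Prime 2) := ⟨Nat.prime_two⟩
  refine ⟨_, (pComponent_over hL).1, ?_⟩
  rw [coreImage, subgroupOf, comap_map_eq_self_of_injective C.subtype_injective]
  exact (pComponent_over hL).2

theorem component_le_centralizer_of_commutator_le {a : G} {B : Subgroup G}
    (hB : B ≤ centralizer ({a} : Set G)) {E : Subgroup ↥(centralizer ({a} : Set G))}
    (h : ⁅E.map (centralizer ({a} : Set G)).subtype, B⁆ ≤ Cfsg.centralizerPPrimeCore 2 a) :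
    coreImage (centralizer ({a} : Set G)) (E.map (centralizer ({a} : Set G)).subtype) ≤
      centralizer (coreImage (centralizer ({a} : Set G)) B : Set _) := by
  rw [← commutator_eq_bot_iff_le_centralizer, ← coreImage_commutator (map_subtype_le _) hB,
    coreImage_eq_bot_iff (commutator_le.2 fun x hx y hy => ?_)]
  · exact h
  · exact centralizerPPrimeCore_le a (h (commutator_mem_commutator hx hy))

/-- The data of a core-separated pair, with solvability of subgroups of odd order. -/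
structure CoreSepData (G : Type u) [Group G] (A₁ A₂ : Subgroup G) : Prop where
  elem₁ : Cfsg.IsElementaryAbelian 2 A₁
  elem₂ : Cfsg.IsElementaryAbelian 2 A₂
  card₁ : Nat.card A₁ = 4
  card₂ : Nat.card A₂ = 4
  comm : ∀ x ∈ A₁, ∀ y ∈ A₂, x * y = y * x
  sep : ∀ t ∈ A₁ ⊔ A₂, t ≠ 1 → ∀ E : Subgroup ↥(centralizer ({t} : Set G)),
    Cfsg.IsPComponent 2 E →
    ⁅E.map (centralizer ({t} : Set G)).subtype, A₁⁆ ≤ Cfsg.centralizerPPrimeCore 2 t ∨
    ⁅E.map (centralizer ({t} : Set G)).subtype, A₂⁆ ≤ Cfsg.centralizerPPrimeCore 2 t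
  odd : ∀ H : Subgroup G, Odd (Nat.card H) → Group.IsSolvable H

variable {A₁ A₂ : Subgroup G}

theorem CoreSepData.symm (h : CoreSepData G A₁ A₂) : CoreSepData G A₂ A₁ where
  elem₁ := h.elem₂
  elem₂ := h.elem₁
  card₁ := h.card₂
  card₂ := h.card₁
  comm x hx y hy := (h.comm y hy x hx).symm
  sep t ht ht1 E hE := (h.sep t (sup_comm A₂ A₁ ▸ ht) ht1 E hE).symm
  odd := h.odd

theorem CoreSepData.elem (h : CoreSepData G A₁ A₂) :
    Cfsg.IsElementaryAbelian 2 (A₁ ⊔ A₂) := by
  haveI : Fact (Nat.Prime 2) := ⟨Nat.prime_two⟩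
  exact Components.elemAb_sup h.elem₁ h.elem₂ h.comm

theorem CoreSepData.orderOf_eq (h : CoreSepData G A₁ A₂) {a : G} (ha : a ∈ A₁ ⊔ A₂)
    (ha1 : a ≠ 1) : orderOf a = 2 := by
  haveI : Fact (Nat.Prime 2) := ⟨Nat.prime_two⟩
  exact elemAb_orderOf h.elem ha ha1

theorem CoreSepData.le_centralizer (h : CoreSepData G A₁ A₂) {a : G} (ha : a ∈ A₁ ⊔ A₂) :
    A₁ ⊔ A₂ ≤ centralizer ({a} : Set G) := elemAb_le_centralizer h.elem ha

theorem CoreSepData.coprime_four {X : Subgroup G} (h : CoreSepData G A₁ A₂)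
    (hX : Odd (Nat.card X)) : (Nat.card A₁).Coprime (Nat.card X) := by
  rw [h.card₁, show 4 = 2 ^ 2 from rfl]
  exact Nat.Coprime.pow_left 2 hX.coprime_two_left

omit [Finite G] in
theorem odd_centralizerPPrimeCore [Finite G] (x : G) :
    Odd (Nat.card (Cfsg.centralizerPPrimeCore 2 x)) := by
  haveI : Fact (Nat.Prime 2) := ⟨Nat.prime_two⟩
  exact Nat.coprime_two_right.1 (Components.centralizerPPrimeCore_coprime (p := 2) x)

/-- The fixed points of `A₁` on `[O(C(a)), A₁]` lie in `O(C(A₁))`. -/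
theorem CoreSepData.commutator_inf_centralizer_le (h : CoreSepData G A₁ A₂) {a : G}
    (ha : a ∈ A₁ ⊔ A₂) (ha1 : a ≠ 1) :
    ⁅Cfsg.centralizerPPrimeCore 2 a, A₁⁆ ⊓ centralizer (A₁ : Set G) ≤
      (Cfsg.pPrimeCore 2 ↥(centralizer (A₁ : Set G))).map (centralizer (A₁ : Set G)).subtype := by
  haveI : Fact (Nat.Prime 2) := ⟨Nat.prime_two⟩
  set Oa := Cfsg.centralizerPPrimeCore 2 a with hOa
  set C₁ := centralizer (A₁ : Set G) with hC₁
  have hAOa : A₁ ≤ normalizer (Oa : Set G) := (le_sup_left.trans (h.le_centralizer ha)).trans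
    (le_normalizer_centralizerPPrimeCore a)
  have hY : ⁅Oa, A₁⁆ ≤ Oa := Coprime.commutator_le_of_le_normalizer hAOa
  have hYodd : Odd (Nat.card (⁅Oa, A₁⁆ : Subgroup G)) :=
    (odd_centralizerPPrimeCore a).of_dvd_nat (card_dvd_of_le hY)
  refine centralizer_le_of_commutator_eq h.elem₁.1 (Coprime.le_normalizer_commutator_right _ _)
    (h.coprime_four hYodd) (h.odd _ hYodd)
    (Coprime.commutator_commutator_of_solvable hAOa (h.coprime_four (odd_centralizerPPrimeCore a))
      (Or.inr (h.odd _ (odd_centralizerPPrimeCore a)))) fun B₀ hB₀ => ?_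
  obtain ⟨hB₀A, a₀, ha₀, hgen⟩ := hB₀
  obtain ⟨s, hsB, hs1⟩ : ∃ s ∈ B₀, s ≠ 1 := by
    by_contra hc
    push Not at hc
    have hle : A₁ ≤ zpowers a₀ := by
      refine hgen.trans (sup_le (fun x hx => ?_) le_rfl)
      rw [hc x hx]
      exact one_mem _
    have h1 := Nat.le_of_dvd Nat.card_pos (card_dvd_of_le hle)
    rw [h.card₁, Nat.card_zpowers] at h1
    have h2 : orderOf a₀ ≤ 2 := Nat.le_of_dvd two_pos (orderOf_dvd_of_pow_eq_one (h.elem₁.2 a₀ ha₀))
    omega
  set X : Subgroup G := ⁅Oa, A₁⁆ ⊓ C₁ ⊓ ⁅⁅Oa, A₁⁆ ⊓ centralizer (B₀ : Set G), A₁⁆ with hXdef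
  have hsA : s ∈ A₁ ⊔ A₂ := mem_sup_left (hB₀A hsB)
  have hso : orderOf s = 2 := h.orderOf_eq hsA hs1
  set Cs := centralizer ({s} : Set G) with hCs
  have hACs : A₁ ⊔ A₂ ≤ Cs := h.le_centralizer hsA
  have hC₁s : C₁ ≤ Cs := centralizer_le (Set.singleton_subset_iff.2 (hB₀A hsB))
  have haC₁ : a ∈ C₁ := mem_centralizer_iff.2 fun x hx =>
    elemAb_comm h.elem (mem_sup_left hx) ha
  have hXO : X ≤ Oa ⊓ C₁ := inf_le_left.trans (inf_le_inf_right _ hY)
  refine le_core_of_centralizes_components (a := ⟨a, haC₁⟩) (h.orderOf_eq ha ha1) hXO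
    fun L hL => ?_
  obtain ⟨E, hE, rfl⟩ := exists_lift_component hL
  set EG := E.map C₁.subtype with hEG
  have hEC : EG ≤ C₁ := map_subtype_le _
  -- in `C(s) / O(C(s))`
  let Q := ↥Cs ⧸ Cfsg.pPrimeCore 2 ↥Cs
  set πs := QuotientGroup.mk' (Cfsg.pPrimeCore 2 ↥Cs) with hπs
  have has : a ∈ Cs := hACs ha
  set aQ : Q := πs ⟨a, has⟩ with haQ
  set M : Subgroup G := C₁ ⊓
    ((Cfsg.centralizerPPrimeCore 2 aQ).comap πs).map Cs.subtype with hM
  have hModd : Odd (Nat.card M) := by
    refine Odd.of_dvd_nat ?_ (card_dvd_of_le inf_le_right)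
    rw [card_map_of_injective Cs.subtype_injective]
    set K := (Cfsg.centralizerPPrimeCore 2 aQ).comap πs with hK
    have hOK : Cfsg.pPrimeCore 2 ↥Cs ≤ K := by
      rw [hK]
      exact le_trans (QuotientGroup.ker_mk' _).ge (Subgroup.ker_le_comap _ _)
    have h1 : Nat.card (Cfsg.pPrimeCore 2 ↥Cs) * (Cfsg.pPrimeCore 2 ↥Cs).relIndex K = Nat.card K := by
      rw [← relIndex_bot_left, relIndex_mul_relIndex _ _ _ bot_le hOK, relIndex_bot_left]
    have h2 : (Cfsg.pPrimeCore 2 ↥Cs).relIndex K = Nat.card (Cfsg.centralizerPPrimeCore 2 aQ) := by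
      conv_lhs => rw [← QuotientGroup.ker_mk' (Cfsg.pPrimeCore 2 ↥Cs), ← MonoidHom.comap_bot, hK]
      rw [relIndex_comap, map_comap_eq_self_of_surjective (QuotientGroup.mk'_surjective _),
        relIndex_bot_left]
    rw [← h1, h2]
    exact (Nat.coprime_two_right.1 Cores.pPrimeCore_coprime).mul (odd_centralizerPPrimeCore aQ)
  -- conjugates of `X` under `EG` stay in `M`
  have hD : coreImage Cs (Oa ⊓ Cs) ≤ Cfsg.centralizerPPrimeCore 2 aQ :=
    coreImage_le_centralizerPPrimeCore (a := ⟨a, has⟩) (h.orderOf_eq ha ha1)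
  have hDK : coreImage Cs (Oa ⊓ Cs) ≤ componentsKernel Q := hD.trans
    (Components.centralizerPPrimeCore_le_componentsKernel Cores.pPrimeCore_quotient_pPrimeCore_eq_bot
      (orderOf_mk_core (a := ⟨a, has⟩) (h.orderOf_eq ha ha1)))
  have hXD : coreImage Cs X ≤ ⁅coreImage Cs (Oa ⊓ Cs), coreImage Cs A₁⁆ := by
    rw [← coreImage_commutator inf_le_right (le_sup_left.trans hACs)]
    exact coreImage_mono (inf_le_right.trans (commutator_mono
      (inf_le_inf hY (centralizer_le (Set.singleton_subset_iff.2 hsB))) le_rfl))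
  set Λ : Subgroup Q :=
    sSup {F | Cfsg.IsComponent F ∧ F ≤ centralizer (coreImage Cs A₂ : Set Q)} with hΛ
  set Λ' : Subgroup Q :=
    sSup {F | Cfsg.IsComponent F ∧ F ≤ centralizer (coreImage Cs A₁ : Set Q)} with hΛ'
  have hlayer : Cfsg.layer Q ≤ Λ ⊔ Λ' := by
    rw [layer_le_iff]
    intro F hF
    obtain ⟨E', hE', rfl⟩ := exists_lift_component hF
    rcases h.sep s hsA hs1 E' hE' with h' | h'
    · exact le_sup_of_le_right (le_sSup
        ⟨hF, component_le_centralizer_of_commutator_le (le_sup_left.trans hACs) h'⟩)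
    · exact le_sup_of_le_left (le_sSup
        ⟨hF, component_le_centralizer_of_commutator_le (le_sup_right.trans hACs) h'⟩)
  have hΛn : Λ ≤ normalizer (Λ' : Set Q) := sSup_le fun F hF x hx =>
    mem_normalizer_sSup fun F' hF' => layer_le_normalizer_component hF'.1 (component_le_layer hF.1 hx)
  have hΛ'X : Λ' ≤ centralizer (coreImage Cs X : Set Q) := sSup_le fun F hF => by
    rw [le_centralizer_iff]
    refine hXD.trans (commutator_le_centralizer_of_normalizes (hDK.trans ?_)
      (le_centralizer_iff.1 hF.2))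
    exact fun x hx => mem_componentsKernel.1 hx F hF.1
  have hElayer : coreImage Cs EG ≤ Cfsg.layer Q := by
    set T : Subgroup ↥Cs := A₁.subgroupOf Cs with hT
    have hTp : IsPGroup 2 T := (elemAb_isPGroup h.elem₁).comap_of_injective Cs.subtype
      Cs.subtype_injective
    have hbal := Cfsg.Agent.S1301.result T hTp
    set C' := centralizer (T : Set ↥Cs) with hC'
    have hmap : C'.map Cs.subtype = C₁ := by
      refine le_antisymm ?_ fun x hx => ⟨⟨x, hC₁s hx⟩, ?_, rfl⟩
      · rintro _ ⟨x, hx, rfl⟩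
        exact mem_centralizer_iff.2 fun y hy => congrArg Subtype.val
          (mem_centralizer_iff.1 hx ⟨y, hACs (mem_sup_left hy)⟩ hy)
      · exact mem_centralizer_iff.2 fun y hy =>
          Subtype.ext (mem_centralizer_iff.1 hx (y : G) hy)
    let e : ↥C' ≃* ↥C₁ := (C'.equivMapOfInjective Cs.subtype Cs.subtype_injective).trans
      (MulEquiv.subgroupCongr hmap)
    rw [← pLayer_map_eq]
    refine map_mono (le_trans ?_ hbal)
    intro x hx
    obtain ⟨y, hy, hyx⟩ := hx
    have hy' : y ∈ Cfsg.pLayer 2 ↥C₁ := pComponent_le_pLayer hE hy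
    rw [← pLayer_map_equiv (p := 2) e] at hy'
    obtain ⟨z, hz, hzy⟩ := hy'
    refine ⟨z, hz, Subtype.ext ?_⟩
    have h3 : (e z : G) = ((z : ↥Cs) : G) := rfl
    show ((z : ↥Cs) : G) = _
    rw [← h3, show e z = y from hzy]
    exact hyx
  have hconj : ∀ e ∈ EG, ∀ x ∈ X, e * x * e⁻¹ ∈ M := by
    intro e he x hx
    have hxC : x ∈ C₁ := (hXO hx).2
    have heC : e ∈ C₁ := hEC he
    refine ⟨C₁.mul_mem (C₁.mul_mem heC hxC) (C₁.inv_mem heC),
      ⟨⟨e, hC₁s heC⟩ * ⟨x, hC₁s hxC⟩ * ⟨e, hC₁s heC⟩⁻¹, ?_, rfl⟩⟩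
    rw [SetLike.mem_coe, mem_comap, map_mul, map_mul, map_inv]
    set eQ := πs ⟨e, hC₁s heC⟩
    set xQ := πs ⟨x, hC₁s hxC⟩
    have hxQ : xQ ∈ coreImage Cs X := ⟨⟨x, hC₁s hxC⟩, hx, rfl⟩
    have heQ : eQ ∈ Λ ⊔ Λ' := hlayer (hElayer ⟨⟨e, hC₁s heC⟩, he, rfl⟩)
    rw [← SetLike.mem_coe, coe_mul_of_left_le_normalizer_right _ _ hΛn] at heQ
    obtain ⟨l, hl, m, hm, hlm⟩ := heQ
    have hlm' : l * m = eQ := hlm
    have hmx : m * xQ * m⁻¹ = xQ := by
      rw [← mem_centralizer_iff.1 (hΛ'X hm) xQ hxQ, mul_inv_cancel_right]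
    have hl1 : l ∈ centralizer (coreImage Cs A₁ : Set Q) := by
      rw [show l = eQ * m⁻¹ by rw [← hlm']; group]
      refine mul_mem (coreImage_le_centralizer (X := EG) hEC ⟨⟨e, hC₁s heC⟩, he, rfl⟩) (inv_mem ?_)
      exact (sSup_le fun F hF => hF.2 : Λ' ≤ _) hm
    have hl2 : l ∈ centralizer (coreImage Cs A₂ : Set Q) := (sSup_le fun F hF => hF.2 : Λ ≤ _) hl
    have hla : l ∈ centralizer ({aQ} : Set Q) := by
      have hle : coreImage Cs (A₁ ⊔ A₂) ≤ centralizer ({l} : Set Q) := by
        rw [coreImage_sup (le_sup_left.trans hACs) (le_sup_right.trans hACs)]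
        exact sup_le (fun y hy => mem_centralizer_singleton_iff.2 (mem_centralizer_iff.1 hl1 y hy))
          (fun y hy => mem_centralizer_singleton_iff.2 (mem_centralizer_iff.1 hl2 y hy))
      exact mem_centralizer_singleton_iff.2
        (mem_centralizer_singleton_iff.1 (hle ⟨⟨a, has⟩, ha, rfl⟩)).symm
    have h4 : eQ * xQ * eQ⁻¹ = l * xQ * l⁻¹ := by
      rw [← hlm', show l * m * xQ * (l * m)⁻¹ = l * (m * xQ * m⁻¹) * l⁻¹ by group, hmx]
    rw [h4]
    exact (mem_normalizer_iff.1 (le_normalizer_centralizerPPrimeCore aQ hla) xQ).1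
      (hD (coreImage_mono (hXO.trans (inf_le_inf_left _ hC₁s)) hxQ))
  -- the closure
  set N : Subgroup G := ⨆ e : EG, X.map (MulAut.conj (e : G)).toMonoidHom with hN
  have hNM : N ≤ M := iSup_le fun e => by
    rintro _ ⟨x, hx, rfl⟩
    exact hconj e e.2 x hx
  have hXN : X ≤ N := fun x hx =>
    le_iSup (fun e : EG => X.map (MulAut.conj (e : G)).toMonoidHom) 1 ⟨x, hx, by simp⟩
  have hEN : EG ≤ normalizer (N : Set G) := by
    have h5 : ∀ g ∈ EG, N ≤ N.comap (MulAut.conj g).toMonoidHom := fun g hg => iSup_le fun e => by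
      rintro _ ⟨x, hx, rfl⟩
      rw [mem_comap]
      refine le_iSup (fun e : EG => X.map (MulAut.conj (e : G)).toMonoidHom)
        ⟨g * e, EG.mul_mem hg e.2⟩ ⟨x, hx, ?_⟩
      simp [mul_assoc]
    intro g hg
    refine mem_normalizer_iff.2 fun n => ⟨fun hn => h5 g hg hn, fun hn => ?_⟩
    simpa [mul_assoc] using h5 g⁻¹ (inv_mem hg) hn
  refine le_bot_iff.1 ((commutator_mono le_rfl (coreImage_mono hXN)).trans (le_of_eq ?_))
  exact component_centralizes_solvable hL (coreImage_solvable (hNM.trans inf_le_left)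
    (h.odd _ (hModd.of_dvd_nat (card_dvd_of_le hNM)))) (le_normalizer_coreImage hEN)

/-- One of the two intersectands of `θ a`. -/
def coreSepPart (A₁ : Subgroup G) (a : G) : Subgroup G :=
  ⁅Cfsg.centralizerPPrimeCore 2 a, A₁⁆ ⊔ (Cfsg.centralizerPPrimeCore 2 a ⊓
    (Cfsg.oddCore ↥(centralizer (A₁ : Set G))).map (centralizer (A₁ : Set G)).subtype)

theorem CoreSepData.le_normalizer_coreSepPart (h : CoreSepData G A₁ A₂) {a : G}
    (ha : a ∈ A₁ ⊔ A₂) : A₁ ⊔ A₂ ≤ normalizer (coreSepPart A₁ a : Set G) := by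
  haveI : Fact (Nat.Prime 2) := ⟨Nat.prime_two⟩
  have hO : A₁ ⊔ A₂ ≤ normalizer (Cfsg.centralizerPPrimeCore 2 a : Set G) :=
    (h.le_centralizer ha).trans (le_normalizer_centralizerPPrimeCore a)
  have hA : A₁ ⊔ A₂ ≤ centralizer (A₁ : Set G) := fun x hx => mem_centralizer_iff.2 fun y hy =>
    elemAb_comm h.elem (mem_sup_left hy) hx
  have hAO₁ : A₁ ⊔ A₂ ≤ normalizer
      (((Cfsg.oddCore ↥(centralizer (A₁ : Set G))).map (centralizer (A₁ : Set G)).subtype :
        Subgroup G) : Set G) :=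
    hA.trans (Components.le_normalizer_map_subtype _)
  exact (le_inf ((le_inf hO (hA.trans (centralizer_le_normalizer _))).trans
      (Coprime.normalizer_inf_le_normalizer_commutator _ _))
    ((le_inf hO hAO₁).trans inf_normalizer_le_normalizer_inf)).trans
      (normalizer_inf_normalizer_le_normalizer_sup _ _)

theorem CoreSepData.coreSepPart_le (h : CoreSepData G A₁ A₂) {a : G} (ha : a ∈ A₁ ⊔ A₂) :
    coreSepPart A₁ a ≤ Cfsg.centralizerPPrimeCore 2 a := by
  haveI : Fact (Nat.Prime 2) := ⟨Nat.prime_two⟩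
  exact sup_le (Coprime.commutator_le_of_le_normalizer ((le_sup_left.trans (h.le_centralizer ha)).trans
    (le_normalizer_centralizerPPrimeCore a))) inf_le_left

theorem CoreSepData.coreSepPart_inf_centralizer_le (h : CoreSepData G A₁ A₂) {a : G}
    (ha : a ∈ A₁ ⊔ A₂) (ha1 : a ≠ 1) :
    coreSepPart A₁ a ⊓ centralizer (A₁ : Set G) ≤
      (Cfsg.oddCore ↥(centralizer (A₁ : Set G))).map (centralizer (A₁ : Set G)).subtype := by
  haveI : Fact (Nat.Prime 2) := ⟨Nat.prime_two⟩
  have hAO : A₁ ≤ normalizer (Cfsg.centralizerPPrimeCore 2 a : Set G) :=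
    (le_sup_left.trans (h.le_centralizer ha)).trans (le_normalizer_centralizerPPrimeCore a)
  have hn : Cfsg.centralizerPPrimeCore 2 a ⊓
      (Cfsg.oddCore ↥(centralizer (A₁ : Set G))).map (centralizer (A₁ : Set G)).subtype ≤
      normalizer ((⁅Cfsg.centralizerPPrimeCore 2 a, A₁⁆ : Subgroup G) : Set G) :=
    inf_le_left.trans (Coprime.le_normalizer_commutator_left _ _)
  rw [coreSepPart, Signalizer.sup_inf_centralizer (elemAb_isPGroup h.elem₁)
    (Coprime.le_normalizer_commutator_right _ _)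
    ((le_inf hAO (show A₁ ≤ _ from fun x hx => Components.le_normalizer_map_subtype _
      (mem_centralizer_iff.2 fun y hy => elemAb_comm h.elem₁ hy hx))).trans
        inf_normalizer_le_normalizer_inf) hn
    (Nat.odd_iff.1 ((odd_centralizerPPrimeCore a).of_dvd_nat
      (card_dvd_of_le (Coprime.commutator_le_of_le_normalizer hAO))) |> fun h2 hd => by omega)]
  exact sup_le (h.commutator_inf_centralizer_le ha ha1) (inf_le_left.trans inf_le_right)

theorem CoreSepData.theta_split (h : CoreSepData G A₁ A₂) {a : G} (ha : a ∈ A₁ ⊔ A₂) {b : G}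
    (hb : b ∈ A₁ ⊔ A₂) (X : Subgroup G)
    (hX : X = coreSepPart A₁ a ⊓ coreSepPart A₂ a ⊓ centralizer ({b} : Set G)) :
    A₁ ⊔ A₂ ≤ normalizer (X : Set G) ∧ ⁅X, A₁⁆ ⊔ (X ⊓ centralizer (A₁ : Set G)) = X := by
  haveI : Fact (Nat.Prime 2) := ⟨Nat.prime_two⟩
  have h2 : A₁ ⊔ A₂ ≤ normalizer (coreSepPart A₂ a : Set G) := by
    rw [sup_comm] at ha ⊢
    exact h.symm.le_normalizer_coreSepPart ha
  have hAX : A₁ ⊔ A₂ ≤ normalizer (X : Set G) := by
    rw [hX]
    exact (le_inf ((le_inf (h.le_normalizer_coreSepPart ha) h2).trans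
      inf_normalizer_le_normalizer_inf)
        (Signalizer.le_normalizer_centralizer_singleton h.elem.1 hb)).trans
          inf_normalizer_le_normalizer_inf
  have hodd : Odd (Nat.card X) := (odd_centralizerPPrimeCore a).of_dvd_nat (card_dvd_of_le (by
    rw [hX]; exact (inf_le_left.trans inf_le_left).trans (h.coreSepPart_le ha)))
  exact ⟨hAX, Coprime.commutator_sup_centralizer (le_sup_left.trans hAX) (h.coprime_four hodd)
    (Or.inr (h.odd _ hodd))⟩

theorem CoreSepData.theta_inf_le_core (h : CoreSepData G A₁ A₂) {a b : G} (ha : a ∈ A₁ ⊔ A₂)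
    (ha1 : a ≠ 1) (hb : b ∈ A₁ ⊔ A₂) (hb1 : b ≠ 1) :
    coreSepPart A₁ a ⊓ coreSepPart A₂ a ⊓ centralizer ({b} : Set G) ≤
      Cfsg.centralizerPPrimeCore 2 b := by
  haveI : Fact (Nat.Prime 2) := ⟨Nat.prime_two⟩
  set X := coreSepPart A₁ a ⊓ coreSepPart A₂ a ⊓ centralizer ({b} : Set G) with hX
  set Cb := centralizer ({b} : Set G) with hCb
  have hACb : A₁ ⊔ A₂ ≤ Cb := h.le_centralizer hb
  have hXO : X ≤ Cfsg.centralizerPPrimeCore 2 a ⊓ Cb :=
    le_inf ((inf_le_left.trans inf_le_left).trans (h.coreSepPart_le ha)) inf_le_right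
  refine le_core_of_centralizes_components (a := ⟨a, hACb ha⟩) (h.orderOf_eq ha ha1) hXO
    fun L hL => ?_
  obtain ⟨E, hE, rfl⟩ := exists_lift_component hL
  set EG := E.map Cb.subtype with hEG
  have key : ∀ B B' : Subgroup G, CoreSepData G B B' → a ∈ B ⊔ B' → B ≤ Cb →
      B ≤ normalizer (X : Set G) →
      ⁅X, B⁆ ⊔ (X ⊓ centralizer (B : Set G)) = X → X ≤ coreSepPart B a →
      ⁅EG, B⁆ ≤ Cfsg.centralizerPPrimeCore 2 b → ⁅coreImage Cb EG, coreImage Cb X⁆ = ⊥ := by
    intro B B' hd haB hB hBX hsplit hXpart hEB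
    have hLB := component_le_centralizer_of_commutator_le hB hEB
    have hXK : coreImage Cb X ≤ normalizer (coreImage Cb EG : Set _) := fun x hx =>
      mem_componentsKernel.1 (Components.centralizerPPrimeCore_le_componentsKernel
        Cores.pPrimeCore_quotient_pPrimeCore_eq_bot
        (orderOf_mk_core (a := ⟨a, hACb ha⟩) (h.orderOf_eq ha ha1))
        (coreImage_le_centralizerPPrimeCore (a := ⟨a, hACb ha⟩) (h.orderOf_eq ha ha1)
          (coreImage_mono hXO hx))) _ hL
    rw [commutator_eq_bot_iff_le_centralizer, le_centralizer_iff, ← hsplit,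
      coreImage_sup ((Coprime.commutator_le_of_le_normalizer ?_).trans (inf_le_right)) ?_]
    · refine sup_le ?_ ?_
      · rw [coreImage_commutator inf_le_right hB]
        exact commutator_le_centralizer_of_normalizes hXK (le_centralizer_iff.1 hLB)
      · -- the part fixed by `B`
        set R := (Cfsg.oddCore ↥(centralizer (B : Set G))).map (centralizer (B : Set G)).subtype ⊓ Cb
          with hR
        have hXR : X ⊓ centralizer (B : Set G) ≤ R :=
          le_inf ((inf_le_inf_right _ hXpart).trans (hd.coreSepPart_inf_centralizer_le haB ha1))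
            (inf_le_left.trans inf_le_right)
        refine (coreImage_mono hXR).trans ?_
        rw [le_centralizer_iff, ← commutator_eq_bot_iff_le_centralizer]
        have hRodd : Odd (Nat.card R) := by
          refine Odd.of_dvd_nat ?_ (card_dvd_of_le inf_le_left)
          rw [card_map_of_injective (centralizer (B : Set G)).subtype_injective]
          exact Nat.coprime_two_right.1 Cores.pPrimeCore_coprime
        refine component_centralizes_solvable hL (coreImage_solvable inf_le_right (h.odd _ hRodd))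
          (hLB.trans ?_)
        have hcop : (Nat.card (B.subgroupOf Cb)).Coprime (Nat.card (Cfsg.pPrimeCore 2 ↥Cb)) := by
          rw [Nat.card_congr (subgroupOfEquivOfLe hB).toEquiv, hd.card₁, show 4 = 2 ^ 2 from rfl]
          exact Nat.Coprime.pow_left 2 Cores.pPrimeCore_coprime.symm
        rw [coreImage, Coprime.centralizer_map_mk' _ _ hcop
          (Or.inl (Group.isSolvable_of_comm fun x y => Subtype.ext (Subtype.ext
            (elemAb_comm hd.elem₁ x.2 y.2))))]
        refine (map_mono ?_).trans (le_normalizer_map _)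
        refine le_trans ?_ (le_normalizer_comap Cb.subtype)
        intro c hc
        refine mem_comap.2 (inf_normalizer_le_normalizer_inf ⟨?_, Subgroup.le_normalizer c.2⟩)
        exact Components.le_normalizer_map_subtype _ (mem_centralizer_iff.2 fun y hy =>
          congrArg Subtype.val (mem_centralizer_iff.1 hc ⟨y, hB hy⟩ hy))
    · exact hBX
    · exact inf_le_left.trans inf_le_right
  rcases h.sep b hb hb1 E hE with h' | h'
  · exact key A₁ A₂ h ha (le_sup_left.trans hACb)
      (le_sup_left.trans (h.theta_split ha hb X hX).1) (h.theta_split ha hb X hX).2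
      (inf_le_left.trans inf_le_left) h'
  · exact key A₂ A₁ h.symm (by rwa [sup_comm]) (le_sup_right.trans hACb)
      (le_sup_right.trans (h.theta_split ha hb X hX).1)
      (h.symm.theta_split (a := a) (b := b) (by rwa [sup_comm]) (by rwa [sup_comm]) X
        (by rw [hX, inf_comm (coreSepPart A₁ a) (coreSepPart A₂ a)])).2
      (inf_le_left.trans inf_le_right) h'

theorem CoreSepData.theta_inf_le (h : CoreSepData G A₁ A₂) {a b : G} (ha : a ∈ A₁ ⊔ A₂)
    (ha1 : a ≠ 1) (hb : b ∈ A₁ ⊔ A₂) (hb1 : b ≠ 1) :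
    coreSepPart A₁ a ⊓ coreSepPart A₂ a ⊓ centralizer ({b} : Set G) ≤ coreSepPart A₁ b := by
  obtain ⟨-, hsplit⟩ := h.theta_split ha hb _ rfl
  conv_lhs => rw [← hsplit]
  refine sup_le ((commutator_mono (h.theta_inf_le_core ha ha1 hb hb1) le_rfl).trans le_sup_left) ?_
  refine le_trans (le_inf (inf_le_left.trans (h.theta_inf_le_core ha ha1 hb hb1)) ?_) le_sup_right
  exact (inf_le_inf_right _ (inf_le_left.trans inf_le_left)).trans
    (h.coreSepPart_inf_centralizer_le ha ha1)

end Cfsg.Agent.Signalizer
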